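import Mathlib

/-!
# Classes of involutions whose products have order `1`, `2` or `p`

Elementary facts.  The key one is `eq_of_conj_eq`: if `x` does not commute with `a` and
`a x a = c x c`, then `a = c`; so two non-commuting members are exchanged by exactly one member.
-/

set_option autoImplicit false

namespace CfsgLib.OddTransp

variable {G : Type*} [Group G]

/-- A normal set of involutions in which non-commuting members have product of order `p`. -/
structure IsOddClass (p : ℕ) (D : Set G) : Prop where
  prime : p.Prime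
  ne_two : p ≠ 2
  order_two : ∀ d ∈ D, orderOf d = 2
  conj_mem : ∀ g : G, ∀ d ∈ D, g * d * g⁻¹ ∈ D
  prod : ∀ d ∈ D, ∀ e ∈ D, Commute d e ∨ (d * e) ^ p = 1

namespace IsOddClass

variable {p : ℕ} {D : Set G} {a b c d x : G}

theorem sq (h : IsOddClass p D) (hd : d ∈ D) : d * d = 1 := by
  rw [← pow_two, ← h.order_two d hd, pow_orderOf_eq_one]

theorem inv_eq (h : IsOddClass p D) (hd : d ∈ D) : d⁻¹ = d :=
  inv_eq_of_mul_eq_one_right (h.sq hd)

theorem cancel (h : IsOddClass p D) (hd : d ∈ D) (x : G) : d * (d * x) = x := by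
  rw [← mul_assoc, h.sq hd, one_mul]

theorem ne_one (h : IsOddClass p D) (hd : d ∈ D) : d ≠ 1 := fun e => by
  simpa [e] using h.order_two d hd

theorem conj_self_mem (h : IsOddClass p D) (hd : d ∈ D) (hx : x ∈ D) : d * x * d ∈ D := by
  simpa [h.inv_eq hd] using h.conj_mem d x hx

theorem orderOf_mul (h : IsOddClass p D) (hd : d ∈ D) (hx : x ∈ D) (hne : ¬ Commute d x) :
    orderOf (d * x) = p := by
  haveI := Fact.mk h.prime
  refine orderOf_eq_prime ((h.prod d hd x hx).resolve_left hne) fun e => hne ?_
  rw [show x = d from (eq_inv_of_mul_eq_one_right e).trans (h.inv_eq hd)]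

/-- An element of order `p` is a power of its square. -/
theorem half (h : IsOddClass p D) {w : G} (hw : w ^ p = 1) : (w * w) ^ ((p + 1) / 2) = w := by
  obtain ⟨j, hj⟩ := (h.prime.odd_of_ne_two h.ne_two)
  rw [← pow_two, ← pow_mul, show 2 * ((p + 1) / 2) = p + 1 by omega, pow_succ, hw, one_mul]

theorem eq_one_of_sq (h : IsOddClass p D) {w : G} (h2 : w * w = 1) (hw : w ^ p = 1) : w = 1 := by
  rw [← h.half hw, h2, one_pow]

/-- **Key fact.** Two members moving `x` alike are equal, if they do not fix it. -/
theorem eq_of_conj_eq (h : IsOddClass p D) (ha : a ∈ D) (hc : c ∈ D) (hx : x ∈ D)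
    (hne : ¬ Commute a x) (he : a * x * a = c * x * c) : a = c := by
  have hnc : ¬ Commute c x := fun e => hne (by
    show a * x = x * a
    have h1 : a * x * a = x := by rw [he, e.eq, mul_assoc, h.sq hc, mul_one]
    calc a * x = a * x * a * a := by rw [mul_assoc _ a, h.sq ha, mul_one]
      _ = x * a := by rw [h1])
  have h1 := (h.prod x hx a ha).resolve_left fun e => hne e.symm
  have h2 := (h.prod x hx c hc).resolve_left fun e => hnc e.symm
  have h3 : x * a * (x * a) = x * c * (x * c) := by
    calc x * a * (x * a) = x * (a * x * a) := by group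
      _ = x * c * (x * c) := by rw [he]; group
  have h4 : x * a = x * c := by rw [← h.half h1, ← h.half h2, h3]
  exact mul_left_cancel h4

/-- A member commuting with a product of two commuting members commutes with both. -/
theorem commute_left (h : IsOddClass p D) (ha : a ∈ D) (hb : b ∈ D) (hc : c ∈ D)
    (hab : Commute a b) (hne : a ≠ b) (hcz : Commute c (a * b)) : Commute c a := by
  by_contra hn
  refine hne (h.eq_of_conj_eq ha hb hc (fun e => hn e.symm) ?_)
  calc a * c * a = a * c * a * (b * b) := by rw [h.sq hb, mul_one]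
    _ = a * (c * (a * b)) * b := by group
    _ = a * ((a * b) * c) * b := by rw [hcz.eq]
    _ = (a * a) * b * c * b := by group
    _ = b * c * b := by rw [h.sq ha, one_mul]

theorem commute_right (h : IsOddClass p D) (ha : a ∈ D) (hb : b ∈ D) (hc : c ∈ D)
    (hab : Commute a b) (hne : a ≠ b) (hcz : Commute c (a * b)) : Commute c b :=
  h.commute_left hb ha hc hab.symm hne.symm (hab.eq ▸ hcz)

/-- Two non-commuting members are exchanged by a member, conjugate to either. -/
theorem exists_mid (h : IsOddClass p D) (hd : d ∈ D) (hx : x ∈ D) (hne : ¬ Commute d x) :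
    ∃ m, m ∈ D ∧ IsConj d m ∧ m * d * m = x ∧ m * x * m = d ∧ ¬ Commute m d := by
  set w := d * x with hw
  have hp : w ^ p = 1 := (h.prod d hd x hx).resolve_left hne
  set v := w ^ ((p + 1) / 2) with hv
  set u := v ^ ((p + 1) / 2) with hu
  have hvv : v * v = w := by rw [hv, ← (Commute.refl w).mul_pow, h.half hp]
  have hvp : v ^ p = 1 := by rw [hv, ← pow_mul, mul_comm, pow_mul, hp, one_pow]
  have huu : u * u = v := by rw [hu, ← (Commute.refl v).mul_pow, h.half hvp]
  have hdw : d * w * d = w⁻¹ := by
    rw [hw, mul_inv_rev, h.inv_eq hx, h.inv_eq hd]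
    rw [← mul_assoc d d x, h.sq hd, one_mul]
  have hinv : ∀ k : ℕ, d * w ^ k * d = (w ^ k)⁻¹ := fun k => by
    have h1 : d * w ^ k * d⁻¹ = (d * w * d⁻¹) ^ k := conj_pow.symm
    rwa [h.inv_eq hd, hdw, inv_pow] at h1
  have hdv : d * v * d = v⁻¹ := hinv _
  have hdu : d * u * d = u⁻¹ := by rw [hu, hv, ← pow_mul]; exact hinv _
  have hm : d * v = u⁻¹ * d * u := by
    rw [← hdu, ← huu]
    calc d * (u * u) = d * u * (d * d) * u := by rw [h.sq hd]; group
      _ = d * u * d * d * u := by group
  have hmem : d * v ∈ D := by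
    rw [hm]; simpa using h.conj_mem u⁻¹ d hd
  have hmd : d * v * d * (d * v) = x := by
    calc d * v * d * (d * v) = d * v * (d * d) * v := by group
      _ = d * (v * v) := by rw [h.sq hd]; group
      _ = x := by rw [hvv, hw, ← mul_assoc, h.sq hd, one_mul]
  have hmx : d * v * x * (d * v) = d := by
    rw [← hmd]
    calc d * v * (d * v * d * (d * v)) * (d * v) = (d * v) * (d * v) * d * ((d * v) * (d * v)) := by
          group
      _ = d := by rw [h.sq hmem]; group
  refine ⟨d * v, hmem, isConj_iff.2 ⟨u⁻¹, by rw [inv_inv, hm]⟩, hmd, hmx, fun e => hne ?_⟩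
  have h1 : d * v * d * (d * v) = d := by rw [e.eq, mul_assoc, h.sq hmem, mul_one]
  rw [show x = d from hmd.symm.trans h1]

theorem isConj_of_not_commute (h : IsOddClass p D) (hd : d ∈ D) (hx : x ∈ D)
    (hne : ¬ Commute d x) : IsConj d x := by
  obtain ⟨m, hm, -, hmd, -, -⟩ := h.exists_mid hd hx hne
  exact isConj_iff.2 ⟨m, by rw [h.inv_eq hm, hmd]⟩

/-- A member exchanges at most one way: `m d m` determines `m`. -/
theorem commute_of_conj_pair (h : IsOddClass p D) {z m : G} (hm : m ∈ D) (hd : d ∈ D)
    (hne : ¬ Commute m d) (hz : z * z = 1) (hzd : z * d * z = m * d * m) : Commute m z := by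
  have hzi : z⁻¹ = z := inv_eq_of_mul_eq_one_right hz
  have hm' : z * m * z ∈ D := by simpa [hzi] using h.conj_mem z m hm
  have he : m * d * m = z * m * z * d * (z * m * z) := by
    calc m * d * m = z * d * z := hzd.symm
      _ = z * ((m * m) * d * (m * m)) * z := by rw [h.sq hm]; group
      _ = z * m * (m * d * m) * m * z := by group
      _ = z * m * (z * d * z) * m * z := by rw [hzd]
      _ = z * m * z * d * (z * m * z) := by group
  have h1 := h.eq_of_conj_eq hm hm' hd hne he
  show m * z = z * m
  conv_lhs => rw [h1]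
  rw [mul_assoc _ z z, hz, mul_one]

theorem not_commute_conj (h : IsOddClass p D) (ha : a ∈ D) (hx : x ∈ D)
    (hne : ¬ Commute a x) : ¬ Commute x (a * x * a) := fun hc => by
  have hy := h.conj_self_mem ha hx
  have hp : (x * a) ^ p = 1 := (h.prod x hx a ha).resolve_left fun e => hne e.symm
  have h2 : (x * (a * x * a)) * (x * (a * x * a)) = 1 := by
    calc x * (a * x * a) * (x * (a * x * a)) = x * (a * x * a) * ((a * x * a) * x) := by rw [hc.eq]
      _ = x * ((a * x * a) * (a * x * a)) * x := by group
      _ = 1 := by rw [h.sq hy, mul_one, h.sq hx]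
  have h3 : x * (a * x * a) = (x * a) * (x * a) := by group
  have h4 := h.eq_one_of_sq h2 (by rw [h3, (Commute.refl _).mul_pow, hp, one_mul])
  rw [h3] at h4
  refine hne ?_
  rw [show x = a from by
    have h5 := h.eq_one_of_sq h4 hp
    exact (eq_inv_of_mul_eq_one_left h5).trans (h.inv_eq ha)]

end IsOddClass

end CfsgLib.OddTransp
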