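import Cfsg.Agent.Lib.OddTransp.Basic
import Cfsg.Agent.Lib.CoprimeAction.Sylow
import Cfsg.Agent.Lib.Involutions.BrauerSuzuki
import Cfsg.Agent.Lib.SeenOnce.FPFFour

/-!
# Pairwise non-commuting closed sets of members

If `S` consists of pairwise non-commuting members and is closed under their conjugations, then
(Z*) `S = {w m}` with `w` running over the elements of an odd order group inverted by `m ∈ S`;
so `|S|` is a power of `p`, and if `p`-elements of that group see `m` only trivially then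
`S = {w m : w ∈ Q}` for a `p`-group `Q` inverted by `m`.
-/

set_option autoImplicit false
set_option linter.style.haveILetI false
set_option linter.unusedSectionVars false

namespace CfsgLib.OddTransp

open Subgroup

variable {G : Type*} [Group G] [Finite G]

/-- The fixed members under a `p`-group acting by conjugation on an invariant set. -/
theorem card_fixed_modEq {p : ℕ} [Fact p.Prime] {H : Subgroup G} (hH : IsPGroup p H) {A : Set G}
    (hA : ∀ h ∈ H, ∀ a ∈ A, h * a * h⁻¹ ∈ A) :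
    Nat.card A ≡ Nat.card {a : A // ∀ h ∈ H, Commute h (a : G)} [MOD p] := by
  letI : MulAction H A :=
    { smul := fun h a => ⟨h * a * (h : G)⁻¹, hA h h.2 a a.2⟩
      one_smul := fun a => Subtype.ext
        (show ((1 : H) : G) * (a : G) * ((1 : H) : G)⁻¹ = a by simp)
      mul_smul := fun h k a => Subtype.ext
        (show ((h * k : H) : G) * (a : G) * ((h * k : H) : G)⁻¹
          = h * (k * a * (k : G)⁻¹) * (h : G)⁻¹ by simp [mul_assoc]) }
  have h1 := hH.card_modEq_card_fixedPoints A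
  have h2 : Nat.card (MulAction.fixedPoints H A) =
      Nat.card {a : A // ∀ h ∈ H, Commute h (a : G)} :=
    Nat.card_congr (Equiv.subtypeEquivRight fun a => by
      constructor
      · intro hf h hh
        have h3 : h * (a : G) * h⁻¹ = a := congrArg Subtype.val (hf ⟨h, hh⟩)
        exact mul_inv_eq_iff_eq_mul.1 h3
      · intro hf h
        exact Subtype.ext (show (h : G) * a * (h : G)⁻¹ = a from
          mul_inv_eq_iff_eq_mul.2 (hf h h.2).eq))
  rwa [h2] at h1

/-- Conjugation by an involution normalising `H`. -/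
def conjEquiv (H : Subgroup G) (m : G) (hm : m * m = 1) (hH : ∀ w ∈ H, m * w * m ∈ H) : H ≃* H where
  toFun w := ⟨m * w * m, hH w w.2⟩
  invFun w := ⟨m * w * m, hH w w.2⟩
  left_inv w := Subtype.ext (show m * (m * (w : G) * m) * m = w by
    simp only [← mul_assoc, hm, one_mul]; rw [mul_assoc, hm, mul_one])
  right_inv w := Subtype.ext (show m * (m * (w : G) * m) * m = w by
    simp only [← mul_assoc, hm, one_mul]; rw [mul_assoc, hm, mul_one])
  map_mul' v w := Subtype.ext (show m * ((v : G) * w) * m = m * v * m * (m * w * m) by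
    calc m * ((v : G) * w) * m = m * v * (m * m) * w * m := by rw [hm]; simp [mul_assoc]
      _ = m * v * m * (m * w * m) := by simp [mul_assoc])

@[simp] theorem coe_conjEquiv (H : Subgroup G) (m : G) (hm : m * m = 1)
    (hH : ∀ w ∈ H, m * w * m ∈ H) (w : H) : ((conjEquiv H m hm hH w : H) : G) = m * w * m := rfl

namespace IsOddClass

variable {p : ℕ} {D : Set G} (hD : IsOddClass p D) {S : Set G}
include hD

/-- The odd order group attached to `S`. -/
theorem exists_odd_group (hS : S ⊆ D) {m : G} (hm : m ∈ S)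
    (hfar : ∀ x ∈ S, ∀ y ∈ S, Commute x y → x = y) (hcl : ∀ x ∈ S, ∀ y ∈ S, x * y * x ∈ S) :
    ∃ O : Subgroup G, O ≤ closure S ∧ Odd (Nat.card O) ∧ (∀ w ∈ O, m * w * m ∈ O) ∧
      ∀ x, x ∈ S ↔ ∃ w ∈ O, m * w * m = w⁻¹ ∧ x = w * m := by
  set K := closure S with hK
  have hinv : ∀ k ∈ K, ∀ x, x ∈ S ↔ k * x * k⁻¹ ∈ S := fun k hk => by
    refine closure_induction (p := fun k _ => ∀ x, x ∈ S ↔ k * x * k⁻¹ ∈ S)
      (fun s hs x => ?_) (fun x => by simp) (fun a b _ _ iha ihb x => ?_) (fun a _ iha x => ?_) hk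
    · rw [hD.inv_eq (hS hs)]
      refine ⟨fun hx => hcl s hs x hx, fun hx => ?_⟩
      have h1 := hcl s hs _ hx
      simpa [mul_assoc, hD.sq (hS hs), hD.cancel (hS hs)] using h1
    · rw [ihb x, iha (b * x * b⁻¹)]
      simp [mul_assoc]
    · rw [iha (a⁻¹ * x * a⁻¹⁻¹)]
      simp [mul_assoc]
  have hmK : m ∈ K := subset_closure hm
  let mK : K := ⟨m, hmK⟩
  have hmord : orderOf mK = 2 := by rw [← orderOf_coe]; exact hD.order_two m (hS hm)
  have hpg : IsPGroup 2 (zpowers mK) :=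
    IsPGroup.of_card (n := 1) (by rw [Nat.card_zpowers, hmord, pow_one])
  obtain ⟨P, hP⟩ := hpg.exists_le_sylow
  have hiso : ∀ g : K, g * mK * g⁻¹ ∈ P → g * mK * g⁻¹ = mK := by
    intro g hg
    have hgS : ((g * mK * g⁻¹ : K) : G) ∈ S := (hinv g g.2 m).1 hm
    refine Subtype.ext (hfar _ hgS m hm ?_)
    by_contra hne
    obtain ⟨j, hj⟩ := (IsPGroup.iff_orderOf.1 P.2)
      ⟨g * mK * g⁻¹ * mK, mul_mem hg (hP (mem_zpowers mK))⟩
    rw [orderOf_mk, ← orderOf_coe] at hj
    have h1 : orderOf (((g * mK * g⁻¹ : K) : G) * m) = p := hD.orderOf_mul (hS hgS) (hS hm) hne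
    have h2 : p ∣ 2 ^ j := by rw [← h1, ← hj]; exact dvd_rfl
    exact hD.ne_two ((Nat.prime_dvd_prime_iff_eq hD.prime Nat.prime_two).1 (hD.prime.dvd_of_dvd_pow h2))
  have hz := CfsgLib.Involutions.zstar_isolated P hmord hiso
  refine ⟨(Cfsg.oddCore K).map K.subtype, map_subtype_le _, ?_, ?_, fun x => ⟨fun hx => ?_, ?_⟩⟩
  · rw [card_map_of_injective K.subtype_injective]
    exact CfsgLib.Cores.odd_card_oddCore
  · rintro _ ⟨w, hw, rfl⟩
    refine ⟨mK * w * mK⁻¹, (inferInstance : (Cfsg.oddCore K).Normal).conj_mem w hw mK, ?_⟩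
    simp [mK, hD.inv_eq (hS hm)]
  · -- a member is conjugate to `m` in `K`
    have hmD := hS hm
    have hxD := hS hx
    rcases eq_or_ne x m with rfl | hne
    · exact ⟨1, one_mem _, by simp [hD.sq hmD], by simp⟩
    have hp : (x * m) ^ p = 1 := (hD.prod x hxD m hmD).resolve_left fun e => hne (hfar x hx m hm e)
    set k := (x * m) ^ ((p + 1) / 2) with hk
    have hkk : k * k = x * m := by rw [hk, ← (Commute.refl _).mul_pow, hD.half hp]
    have hmk : m * k * m = k⁻¹ := by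
      have h1 : m * k * m⁻¹ = (m * (x * m) * m⁻¹) ^ ((p + 1) / 2) := conj_pow.symm
      rw [hD.inv_eq hmD, show m * (x * m) * m = (x * m)⁻¹ by
        rw [mul_inv_rev, hD.inv_eq hmD, hD.inv_eq hxD, mul_assoc m, mul_assoc x, hD.sq hmD, mul_one],
        inv_pow] at h1
      exact h1
    have hkK : k ∈ K := pow_mem (mul_mem (subset_closure hx) hmK) _
    let kK : K := ⟨k, hkK⟩
    refine ⟨x * m, ⟨kK * mK * kK⁻¹ * mK, ?_, ?_⟩, ?_, ?_⟩
    · have h1 := inv_mem (hz kK)
      have h2 : (mK * kK * mK⁻¹ * kK⁻¹)⁻¹ = kK * mK * kK⁻¹ * mK := by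
        rw [mul_inv_rev, mul_inv_rev, mul_inv_rev, inv_inv, inv_inv,
          show mK⁻¹ = mK from Subtype.ext (hD.inv_eq hmD)]
        simp [mul_assoc]
      rwa [h2] at h1
    · show k * m * k⁻¹ * m = x * m
      rw [← hmk]
      calc k * m * (m * k * m) * m = k * (m * m) * k * (m * m) := by group
        _ = x * m := by rw [hD.sq hmD, mul_one, mul_one, hkk]
    · rw [mul_inv_rev, hD.inv_eq hmD, hD.inv_eq hxD, mul_assoc m, mul_assoc x, hD.sq hmD, mul_one]
    · rw [mul_assoc, hD.sq hmD, mul_one]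
  · rintro ⟨_, ⟨w, hw, rfl⟩, hwi, rfl⟩
    change m * (w : G) * m = (w : G)⁻¹ at hwi
    show (w : G) * m ∈ S
    set j := (Nat.card (Cfsg.oddCore K) + 1) / 2 with hj
    have hw2 : (w : G) ^ j * (w : G) ^ j = w := by
      have ho : Odd (Nat.card (Cfsg.oddCore K)) := CfsgLib.Cores.odd_card_oddCore
      obtain ⟨i, hi⟩ := ho
      have h1 : w ^ Nat.card (Cfsg.oddCore K) = 1 := by
        have := pow_card_eq_one' (x := (⟨w, hw⟩ : Cfsg.oddCore K))
        exact congrArg Subtype.val this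
      rw [← pow_add, show j + j = Nat.card (Cfsg.oddCore K) + 1 by omega, pow_succ]
      rw [← SubmonoidClass.coe_pow, h1, OneMemClass.coe_one, one_mul]
    have hmj : m * (w : G) ^ j * m = ((w : G) ^ j)⁻¹ := by
      have h1 : m * (w : G) ^ j * m⁻¹ = (m * (w : G) * m⁻¹) ^ j := conj_pow.symm
      rwa [hD.inv_eq (hS hm), hwi, inv_pow] at h1
    have h2 := (hinv _ (pow_mem w.2 j) m).1 hm
    have h3 : (w : G) ^ j * m * ((w : G) ^ j)⁻¹ = w * m := by
      rw [← hmj]
      calc (w : G) ^ j * m * (m * (w : G) ^ j * m) = (w : G) ^ j * (m * m) * (w : G) ^ j * m := by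
            group
        _ = w * m := by rw [hD.sq (hS hm), mul_one, hw2]
    rwa [h3] at h2

omit [Finite G] in
theorem eq_one_of_inverted {m w : G} (hS : S ⊆ D) (hm : m ∈ S)
    (hfar : ∀ x ∈ S, ∀ y ∈ S, Commute x y → x = y) (hwm : w * m ∈ S) {q : ℕ} (hq : q.Prime)
    (hqp : q ≠ p) {i : ℕ} (hi : w ^ q ^ i = 1) : w = 1 := by
  rcases hD.prod _ (hS hwm) m (hS hm) with h | h
  · have := hfar _ hwm m hm h
    exact mul_eq_right.1 this
  · rw [mul_assoc, hD.sq (hS hm), mul_one] at h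
    exact orderOf_eq_one_iff.1 (Nat.eq_one_of_dvd_coprimes
      (((Nat.coprime_primes hq hD.prime).2 hqp).pow_left i)
      (orderOf_dvd_of_pow_eq_one hi) (orderOf_dvd_of_pow_eq_one h))

/-- A closed set of pairwise non-commuting members has `p`-power size; under a fixed point free
hypothesis it is a coset of an inverted `p`-group. -/
theorem far_set (hS : S ⊆ D) {m : G} (hm : m ∈ S)
    (hfar : ∀ x ∈ S, ∀ y ∈ S, Commute x y → x = y) (hcl : ∀ x ∈ S, ∀ y ∈ S, x * y * x ∈ S) :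
    (∃ k : ℕ, Nat.card S = p ^ k) ∧
      ((∀ u ∈ closure S, Odd (orderOf u) → (∃ i : ℕ, u ^ p ^ i = 1) → Commute u m → u = 1) →
        ∃ Q : Subgroup G, IsPGroup p Q ∧ Nat.card Q = Nat.card S ∧ Q ≤ closure S ∧
          ∀ x, x ∈ S ↔ ∃ w ∈ Q, m * w * m = w⁻¹ ∧ x = w * m ∧ ∀ v ∈ Q, m * v * m = v⁻¹) := by
  obtain ⟨O, hOK, hOodd, hOm, hSiff⟩ := hD.exists_odd_group hS hm hfar hcl
  have hmm := hD.sq (hS hm)
  set z := conjEquiv O m hmm hOm with hz
  have hzz : ∀ v, z (z v) = v := (conjEquiv O m hmm hOm).left_inv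
  have hcount := CfsgLib.SeenOnce.FPFFour.card_inverted_mul z hOodd hzz
  have hcardS : Nat.card (CfsgLib.SeenOnce.FPFFour.Inverted z) = Nat.card S := by
    refine Nat.card_congr (Equiv.ofBijective
      (fun w => ⟨(w.1 : G) * m, (hSiff _).2 ⟨_, w.1.2, congrArg Subtype.val w.2, rfl⟩⟩) ⟨?_, ?_⟩)
    · intro v w e
      exact Subtype.ext (Subtype.ext (mul_right_cancel (congrArg Subtype.val e)))
    · rintro ⟨x, hx⟩
      obtain ⟨w, hw, hwi, rfl⟩ := (hSiff x).1 hx
      exact ⟨⟨⟨w, hw⟩, Subtype.ext hwi⟩, rfl⟩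
  rw [hcardS] at hcount
  have hA : zpowers m ≤ Subgroup.normalizer (O : Set G) := zpowers_le.2
    (CfsgLib.CoprimeAction.mem_normalizer_of_conj_mem fun w hw => by
      rw [hD.inv_eq (hS hm)]; exact hOm w hw)
  have hcop : (Nat.card (zpowers m)).Coprime (Nat.card O) := by
    rw [Nat.card_zpowers, hD.order_two m (hS hm)]
    exact Nat.prime_two.coprime_iff_not_dvd.2 fun h => Nat.not_even_iff_odd.2 hOodd (even_iff_two_dvd.2 h)
  have hsylow : ∀ q : ℕ, q.Prime → ∃ Q : Subgroup G, Q ≤ O ∧ IsPGroup q Q ∧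
      Nat.card Q = q ^ (Nat.card O).factorization q ∧ ∀ v ∈ Q, m * v * m ∈ Q := by
    intro q hq
    haveI := Fact.mk hq
    obtain ⟨P, hP⟩ := CfsgLib.CoprimeAction.exists_invariant_sylow hA hcop
      (Or.inl inferInstance) q
    refine ⟨(P : Subgroup O).map O.subtype, map_subtype_le _, P.2.map _, ?_, fun v hv => ?_⟩
    · rw [card_map_of_injective O.subtype_injective]; exact P.card_eq_multiplicity
    · have h1 := (mem_normalizer_iff.1 (hP (mem_zpowers m)) v).1 hv
      rwa [hD.inv_eq (hS hm)] at h1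
  have hne : Nat.card S ≠ 0 := by
    haveI : Nonempty S := ⟨⟨m, hm⟩⟩
    exact Nat.card_pos.ne'
  have hpow : ∃ k : ℕ, Nat.card S = p ^ k := by
    refine ⟨_, Nat.eq_prime_pow_of_unique_prime_dvd hne fun {q} hq hqS => ?_⟩
    by_contra hqp
    obtain ⟨Q, hQO, hQq, hQc, hQm⟩ := hsylow q hq
    have hfix : ∀ v ∈ Q, m * v * m = v := by
      intro v hv
      set w := m * v * m * v⁻¹ with hw
      have hwQ : w ∈ Q := mul_mem (hQm v hv) (inv_mem hv)
      have hwi : m * w * m = w⁻¹ := by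
        rw [hw, mul_inv_rev, inv_inv, mul_inv_rev, mul_inv_rev, hD.inv_eq (hS hm)]
        simp only [← mul_assoc, hmm, one_mul]
      obtain ⟨i, hi⟩ := hQq ⟨w, hwQ⟩
      have h1 : w = 1 := hD.eq_one_of_inverted hS hm hfar ((hSiff _).2 ⟨w, hQO hwQ, hwi, rfl⟩) hq hqp
        (congrArg Subtype.val hi)
      exact mul_inv_eq_one.1 h1
    have hle : Q.subgroupOf O ≤ CfsgLib.SeenOnce.FPFFour.fixedSubgroup z := fun v hv =>
      Subtype.ext (hfix _ (mem_subgroupOf.1 hv))
    have h2 : q ^ (Nat.card O).factorization q ∣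
        Nat.card (CfsgLib.SeenOnce.FPFFour.fixedSubgroup z) := by
      rw [← hQc, ← Nat.card_congr (subgroupOfEquivOfLe hQO).toEquiv]
      exact card_dvd_of_le hle
    refine Nat.pow_succ_factorization_not_dvd (n := Nat.card O) Nat.card_pos.ne' hq ?_
    rw [pow_succ']
    exact (Nat.mul_dvd_mul hqS h2).trans (dvd_of_eq hcount)
  refine ⟨hpow, fun hfree => ?_⟩
  obtain ⟨Q, hQO, hQp, hQc, hQm⟩ := hsylow p hD.prime
  haveI := Fact.mk hD.prime
  have hoddu : ∀ u ∈ O, Odd (orderOf u) := fun u hu =>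
    Odd.of_dvd_nat hOodd (O.orderOf_dvd_natCard hu)
  have hfix1 : ∀ u ∈ O, (∃ i : ℕ, u ^ p ^ i = 1) → m * u * m = u → u = 1 := fun u hu hi he =>
    hfree u (hOK hu) (hoddu u hu) hi (by
      show u * m = m * u
      conv_lhs => rw [← he]
      rw [mul_assoc _ m m, hmm, mul_one])
  have hQfix : ∀ v ∈ Q, m * v * m = v → v = 1 := fun v hv => by
    obtain ⟨i, hi⟩ := hQp ⟨v, hv⟩
    exact hfix1 v (hQO hv) ⟨i, congrArg Subtype.val hi⟩
  set zQ := conjEquiv Q m hmm hQm with hzQ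
  have hQinv : ∀ v ∈ Q, m * v * m = v⁻¹ := by
    have hodd : Odd (Nat.card Q) := Odd.of_dvd_nat hOodd (card_dvd_of_le hQO)
    have h1 := CfsgLib.SeenOnce.FPFFour.card_inverted_mul zQ hodd (conjEquiv Q m hmm hQm).left_inv
    have h2 : CfsgLib.SeenOnce.FPFFour.fixedSubgroup zQ = ⊥ := (eq_bot_iff_forall _).2 fun v hv =>
      Subtype.ext (hQfix v v.2 (congrArg Subtype.val hv))
    rw [h2, card_bot, mul_one] at h1
    have hbij : Function.Bijective (fun w : CfsgLib.SeenOnce.FPFFour.Inverted zQ => w.1) :=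
      Function.Injective.bijective_of_nat_card_le (fun a b => Subtype.ext) h1.ge
    intro v hv
    obtain ⟨w, hw⟩ := hbij.2 ⟨v, hv⟩
    have h3 : zQ ⟨v, hv⟩ = (⟨v, hv⟩ : Q)⁻¹ := hw ▸ w.2
    exact congrArg Subtype.val h3
  have hQS : Nat.card Q = Nat.card S := by
    obtain ⟨k, hk⟩ := hpow
    have hnd : ¬ p ∣ Nat.card (CfsgLib.SeenOnce.FPFFour.fixedSubgroup z) := fun hd => by
      obtain ⟨v, hv⟩ := exists_prime_orderOf_dvd_card' p hd
      have h1 : ((v : O) : G) = 1 := hfix1 _ (v : O).2 ⟨1, by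
        rw [pow_one, ← hv, ← orderOf_coe v, ← orderOf_coe (v : O), pow_orderOf_eq_one]⟩
        (congrArg Subtype.val v.2)
      have h2 : v = 1 := Subtype.ext (Subtype.ext h1)
      rw [h2, orderOf_one] at hv
      exact hD.prime.one_lt.ne hv
    rw [hQc, ← hcount, Nat.factorization_mul hne Nat.card_pos.ne', Finsupp.add_apply,
      Nat.factorization_eq_zero_of_not_dvd hnd, add_zero, hk,
      hD.prime.factorization_pow, Finsupp.single_eq_same]
  refine ⟨Q, hQp, hQS, hQO.trans hOK, fun x => ⟨fun hx => ?_, ?_⟩⟩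
  · have hbij : Function.Bijective (fun w : Q => (⟨(w : G) * m, (hSiff _).2
        ⟨w, hQO w.2, hQinv w w.2, rfl⟩⟩ : S)) :=
      Function.Injective.bijective_of_nat_card_le
        (fun a b e => Subtype.ext (mul_right_cancel (congrArg Subtype.val e))) hQS.ge
    obtain ⟨w, hw⟩ := hbij.2 ⟨x, hx⟩
    exact ⟨w, w.2, hQinv w w.2, (congrArg Subtype.val hw).symm, hQinv⟩
  · rintro ⟨w, hw, hwi, rfl, -⟩
    exact (hSiff _).2 ⟨w, hQO hw, hwi, rfl⟩

end IsOddClass

end CfsgLib.OddTransp
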