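import Cfsg.Agent.Lib.OddTransp.Setting
import Cfsg.Agent.Lib.OddTransp.FarClass

/-!
# No minimal counterexample

For non-commuting `c, d` exactly `g` (the block size) members exchange the two blocks; they are
`{w m : w ∈ Q}` and invert every `p`-element fixing both blocks.  So a product `y` of two
non-commuting members fixing `F > 0` blocks is inverted by `g (F - 1)` members, a `p`-power; but
`F` is a multiple of `p`, as some such product fixes no block at all.
-/

set_option autoImplicit false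
set_option linter.style.haveILetI false
set_option linter.unusedSectionVars false

namespace CfsgLib.OddTransp

open Subgroup

variable {G : Type*} [Group G] [Finite G] {p : ℕ} {D : Set G}

namespace Setting

variable (S : Setting p D)
include S

omit [Finite G] in
theorem commute_conj {g a b : G} (h : Commute a b) : Commute (g * a * g⁻¹) (g * b * g⁻¹) :=
  (Commute.conj_iff g).2 h

/-- The block of `c`. -/
abbrev blk (_S : Setting p D) (c : G) : Set G := {e | e ∈ D ∧ Commute c e}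

/-- The members exchanging the blocks of `c` and `d`. -/
abbrev swappers (_S : Setting p D) (c d : G) : Set G := {x | x ∈ D ∧ Commute (x * c * x) d}

theorem card_blk {c d : G} (hc : c ∈ D) (hd : d ∈ D) :
    Nat.card (S.blk c) = Nat.card (S.blk d) := by
  obtain ⟨k, hk⟩ := isConj_iff.1 (S.conj c hc d hd)
  refine Nat.card_congr (Equiv.subtypeEquiv (MulAut.conj k).toEquiv fun e => ?_)
  show e ∈ S.blk c ↔ k * e * k⁻¹ ∈ S.blk d
  refine ⟨fun h => ⟨S.conj_mem k e h.1, hk ▸ S.commute_conj h.2⟩, fun h => ⟨?_, ?_⟩⟩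
  · simpa [mul_assoc] using S.conj_mem k⁻¹ _ h.1
  · exact (Commute.conj_iff k).1 (hk.symm ▸ h.2)

/-- A second member in every block. -/
theorem exists_ne_in_blk {c : G} (hc : c ∈ D) : ∃ b ∈ S.blk c, b ≠ c := by
  obtain ⟨b, hb, hcb⟩ := S.partner c hc
  obtain ⟨h1, h2, -⟩ := S.toIsOddClass.triangle hc hb hcb hc (Commute.refl c)
  exact ⟨b, ⟨hb, h1⟩, h2.symm⟩

theorem card_swappers {c d : G} (hc : c ∈ D) (hd : d ∈ D) (hn : ¬ Commute c d) :
    Nat.card (S.swappers c d) = Nat.card (S.blk d) := by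
  refine Nat.card_congr (Equiv.ofBijective
    (fun x => ⟨x.1 * c * x.1, S.conj_self_mem x.2.1 hc, x.2.2.symm⟩) ⟨?_, ?_⟩)
  · rintro ⟨x, hx, hxd⟩ ⟨x', hx', hx'd⟩ he
    refine Subtype.ext (S.eq_of_conj_eq hx hx' hc (fun hxc => hn ?_) (congrArg Subtype.val he))
    rwa [hxc.eq, mul_assoc, S.sq hx, mul_one] at hxd
  · rintro ⟨e, he, hde⟩
    obtain ⟨m, hm, -, hmc, -, -⟩ := S.exists_mid hc he fun hce => hn
      (S.commute_trans hc he hd hce hde.symm)
    exact ⟨⟨m, hm, hmc ▸ hde.symm⟩, Subtype.ext hmc⟩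

theorem swappers_symm {c d x : G} (h : x ∈ S.swappers c d) : Commute (x * d * x) c := by
  have h1 := (Commute.conj_iff x).2 h.2
  rw [S.inv_eq h.1, show x * (x * c * x) * x = c by
    simp only [← mul_assoc, S.sq h.1, one_mul]; rw [mul_assoc, S.sq h.1, mul_one]] at h1
  exact h1.symm

theorem swappers_far {c d : G} (hc : c ∈ D) (hd : d ∈ D) (hn : ¬ Commute c d) :
    ∀ x ∈ S.swappers c d, ∀ y ∈ S.swappers c d, Commute x y → x = y := by
  intro x hx y hy hxy
  by_contra hne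
  have hu := S.prod_mem hx.1 hy.1 hxy hne
  have key : ∀ {c d : G}, c ∈ D → d ∈ D → Commute (x * d * x) c → Commute (y * c * y) d →
      Commute (x * y) c := by
    intro c d hc hd h1 h2
    refine S.commute_of_fix hu hc ?_
    have h3 := (Commute.conj_iff x).2 h2
    rw [S.inv_eq hx.1] at h3
    have h4 : x * y * c * (x * y) = x * (y * c * y) * x := by
      calc x * y * c * (x * y) = x * y * c * (y * x) := by rw [hxy.eq]
        _ = x * (y * c * y) * x := by simp only [mul_assoc]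
    rw [h4]
    exact S.commute_trans hc (S.conj_self_mem hx.1 hd) (S.conj_self_mem hx.1 (S.conj_self_mem hy.1 hc))
      h1.symm h3.symm
  exact hn (S.commute_trans hc hu hd (key hc hd (S.swappers_symm hx) hy.2).symm
    (key hd hc hx.2 (S.swappers_symm hy)))

theorem swappers_closed {c d : G} (hc : c ∈ D) (hd : d ∈ D) :
    ∀ x ∈ S.swappers c d, ∀ y ∈ S.swappers c d, x * y * x ∈ S.swappers c d := by
  intro x hx y hy
  refine ⟨S.conj_self_mem hx.1 hy.1, ?_⟩
  have hcx := S.conj_self_mem hx.1 hc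
  have h1 : Commute (y * (x * c * x) * y) (y * d * y) := by
    simpa [S.inv_eq hy.1] using S.commute_conj (g := y) hx.2
  have h2 := S.commute_trans (S.conj_self_mem hy.1 hcx) (S.conj_self_mem hy.1 hd) hc h1
    (S.swappers_symm hy)
  have h3 : Commute (x * (y * (x * c * x) * y) * x) (x * c * x) := by
    simpa [S.inv_eq hx.1] using S.commute_conj (g := x) h2
  have h4 := S.commute_trans (S.conj_self_mem hx.1 (S.conj_self_mem hy.1 hcx)) hcx hd h3 hx.2
  simpa only [mul_assoc] using h4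

theorem map_block {g k c e f : G} (hc : c ∈ D) (he : e ∈ D) (hf : f ∈ D)
    (h1 : Commute (k * c * k⁻¹) e) (h2 : Commute (g * e * g⁻¹) f) :
    Commute (g * k * c * (g * k)⁻¹) f := by
  have h3 := S.commute_trans (S.conj_mem g _ (S.conj_mem k c hc)) (S.conj_mem g e he) hf
    (S.commute_conj h1) h2
  simpa [mul_assoc] using h3

omit [Finite G] in
theorem map_block_inv {g c e : G} (h : Commute (g * c * g⁻¹) e) :
    Commute (g⁻¹ * e * g⁻¹⁻¹) c := by
  have h1 := S.commute_conj (g := g⁻¹) h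
  simpa [mul_assoc] using h1.symm

/-- The stabiliser of two blocks. -/
def stab {c d : G} (hc : c ∈ D) (hd : d ∈ D) : Subgroup G where
  carrier := {g | Commute (g * c * g⁻¹) c ∧ Commute (g * d * g⁻¹) d}
  one_mem' := by simp
  mul_mem' := fun hg hk => ⟨S.map_block hc hc hc hk.1 hg.1, S.map_block hd hd hd hk.2 hg.2⟩
  inv_mem' := fun hg => ⟨S.map_block_inv hg.1, S.map_block_inv hg.2⟩

/-- The stabiliser of a pair of blocks. -/
def pairStab {c d : G} (hc : c ∈ D) (hd : d ∈ D) : Subgroup G where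
  carrier := {g | (Commute (g * c * g⁻¹) c ∧ Commute (g * d * g⁻¹) d) ∨
    (Commute (g * c * g⁻¹) d ∧ Commute (g * d * g⁻¹) c)}
  one_mem' := Or.inl (by simp)
  mul_mem' := fun hg hk => by
    rcases hg with ⟨g1, g2⟩ | ⟨g1, g2⟩ <;> rcases hk with ⟨k1, k2⟩ | ⟨k1, k2⟩
    · exact Or.inl ⟨S.map_block hc hc hc k1 g1, S.map_block hd hd hd k2 g2⟩
    · exact Or.inr ⟨S.map_block hc hd hd k1 g2, S.map_block hd hc hc k2 g1⟩
    · exact Or.inr ⟨S.map_block hc hc hd k1 g1, S.map_block hd hd hc k2 g2⟩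
    · exact Or.inl ⟨S.map_block hc hd hc k1 g2, S.map_block hd hc hd k2 g1⟩
  inv_mem' := fun hg => hg.elim
    (fun h => Or.inl ⟨S.map_block_inv h.1, S.map_block_inv h.2⟩)
    (fun h => Or.inr ⟨S.map_block_inv h.2, S.map_block_inv h.1⟩)

theorem mem_stab {c d g : G} (hc : c ∈ D) (hd : d ∈ D) :
    g ∈ S.stab hc hd ↔ Commute (g * c * g⁻¹) c ∧ Commute (g * d * g⁻¹) d := Iff.rfl

theorem stab_swappers {c d g x : G} (hc : c ∈ D) (hd : d ∈ D) (hg : g ∈ S.stab hc hd)
    (hx : x ∈ S.swappers c d) : g * x * g⁻¹ ∈ S.swappers c d := by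
  refine ⟨S.conj_mem g x hx.1, ?_⟩
  have hg' := (inv_mem hg : g⁻¹ ∈ S.stab hc hd).1
  rw [inv_inv] at hg'
  have hc' : g⁻¹ * c * g ∈ D := by simpa using S.conj_mem g⁻¹ c hc
  have h1 : Commute (x * (g⁻¹ * c * g) * x) (x * c * x) := by
    simpa [S.inv_eq hx.1] using S.commute_conj (g := x) hg'
  have h2 := S.commute_conj (g := g)
    (S.commute_trans (S.conj_self_mem hx.1 hc') (S.conj_self_mem hx.1 hc) hd h1 hx.2)
  have h3 := S.commute_trans (S.conj_mem g _ (S.conj_self_mem hx.1 hc')) (S.conj_mem g d hd) hd h2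
    hg.2
  simpa [mul_assoc] using h3

theorem closure_swappers_sq {c d : G} (hc : c ∈ D) (hd : d ∈ D) {u : G}
    (hu : u ∈ closure (S.swappers c d)) (hodd : Odd (orderOf u)) : u ∈ S.stab hc hd := by
  have hle : closure (S.swappers c d) ≤ S.pairStab hc hd := (closure_le _).2 fun x hx => Or.inr (by
    rw [S.inv_eq hx.1]
    exact ⟨hx.2, S.swappers_symm hx⟩)
  have h1 : u * u ∈ S.stab hc hd := by
    rcases hle hu with ⟨h1, h2⟩ | ⟨h1, h2⟩
    · exact ⟨S.map_block hc hc hc h1 h1, S.map_block hd hd hd h2 h2⟩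
    · exact ⟨S.map_block hc hd hc h1 h2, S.map_block hd hc hd h2 h1⟩
  obtain ⟨j, hj⟩ := hodd
  have h2 := pow_mem h1 (j + 1)
  rwa [← pow_two, ← pow_mul, show 2 * (j + 1) = orderOf u + 1 by omega, pow_succ,
    pow_orderOf_eq_one, one_mul] at h2

/-- The block size is a multiple of `p`. -/
theorem dvd_card_blk {c : G} (hc : c ∈ D) : p ∣ Nat.card (S.blk c) := by
  haveI := Fact.mk S.prime
  obtain ⟨d, hd, hn⟩ : ∃ d ∈ D, ¬ Commute c d := by
    obtain ⟨a, ha, x, hx, hne⟩ := S.far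
    by_contra hall
    push Not at hall
    exact hne (S.commute_trans ha hc hx (hall a ha).symm (hall x hx))
  have hg : 1 < Nat.card (S.swappers c d) := by
    rw [S.card_swappers hc hd hn]
    haveI : Nonempty (S.blk d) := ⟨⟨d, hd, Commute.refl d⟩⟩
    obtain ⟨b, hb, hbd⟩ := S.exists_ne_in_blk hd
    exact Finite.one_lt_card_iff_nontrivial.2
      ⟨⟨⟨d, hd, Commute.refl d⟩, ⟨b, hb⟩, fun e => hbd (congrArg Subtype.val e).symm⟩⟩
  haveI := Finite.one_lt_card_iff_nontrivial.1 hg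
  obtain ⟨⟨x, hx⟩, ⟨y, hy⟩, hxy⟩ := exists_pair_ne (S.swappers c d)
  have hne : ¬ Commute x y := fun e => hxy (Subtype.ext (S.swappers_far hc hd hn x hx y hy e))
  have hmx : x * y ∈ S.stab hc hd := by
    refine S.closure_swappers_sq hc hd (mul_mem (Subgroup.subset_closure hx) (Subgroup.subset_closure hy)) ?_
    rw [S.orderOf_mul hx.1 hy.1 hne]
    exact S.prime.odd_of_ne_two S.ne_two
  have hH : IsPGroup p (zpowers (x * y)) :=
    IsPGroup.of_card (n := 1) (by rw [Nat.card_zpowers, S.orderOf_mul hx.1 hy.1 hne, pow_one])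
  have hA : ∀ h ∈ zpowers (x * y), ∀ a ∈ S.blk c, h * a * h⁻¹ ∈ S.blk c := by
    intro h hh a ha
    refine ⟨S.conj_mem h a ha.1, ?_⟩
    have hs := zpowers_le.2 hmx hh
    exact S.commute_trans hc (S.conj_mem h c hc) (S.conj_mem h a ha.1) hs.1.symm
      (S.commute_conj ha.2)
  have h1 := card_fixed_modEq hH hA
  have h2 : IsEmpty {a : S.blk c // ∀ h ∈ zpowers (x * y), Commute h (a : G)} := by
    refine ⟨fun ⟨⟨e, he, hce⟩, hfix⟩ => ?_⟩
    have hey : Commute (x * y) e := hfix _ (mem_zpowers _)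
    have hxe : x * e * x = y * e * y := by
      calc x * e * x = x * ((x * y) * e) * (y * x) * x := by
            rw [hey.eq]; simp [mul_assoc, S.sq hx.1, S.cancel hy.1]
        _ = y * e * y := by simp [mul_assoc, S.sq hx.1, S.cancel hx.1]
    by_cases hc' : Commute x e
    · refine hn (S.commute_trans hc (S.conj_self_mem hx.1 hc) hd ?_ hx.2)
      have h3 : Commute (x * c * x) (x * e * x) := by
        simpa [S.inv_eq hx.1] using S.commute_conj (g := x) hce
      rw [show x * e * x = e by rw [hc'.eq, mul_assoc, S.sq hx.1, mul_one]] at h3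
      exact S.commute_trans hc he (S.conj_self_mem hx.1 hc) hce h3.symm
    · exact hne ((S.eq_of_conj_eq hx.1 hy.1 he hc' hxe) ▸ Commute.refl x)
  rw [Nat.card_of_isEmpty (α := {a : S.blk c // ∀ h ∈ zpowers (x * y), Commute h (a : G)})] at h1
  exact Nat.modEq_zero_iff_dvd.1 h1

/-- A `p`-element fixing two blocks and a member exchanging them is trivial. -/
theorem semiregular {c d u m : G} (hc : c ∈ D) (hd : d ∈ D) (hn : ¬ Commute c d)
    (hu : u ∈ S.stab hc hd) (hm : m ∈ S.swappers c d) (hum : Commute u m)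
    (hpu : ∃ i : ℕ, u ^ p ^ i = 1) : u = 1 := by
  haveI := Fact.mk S.prime
  have hH : IsPGroup p (zpowers u) := by
    obtain ⟨i, hi⟩ := hpu
    obtain ⟨j, -, hj⟩ := (Nat.dvd_prime_pow S.prime).1 (orderOf_dvd_of_pow_eq_one hi)
    exact IsPGroup.of_card (by rw [Nat.card_zpowers, hj])
  have key : ∀ A : Set G, m ∈ A → p ∣ Nat.card A →
      (∀ h ∈ zpowers u, ∀ a ∈ A, h * a * h⁻¹ ∈ A) → ∃ e ∈ A, e ≠ m ∧ Commute u e := by
    intro A hmA hpA hA
    have h1 := (card_fixed_modEq hH hA).symm.trans (Nat.modEq_zero_iff_dvd.2 hpA)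
    have hmf : ∀ h ∈ zpowers u, Commute h m := fun h hh => by
      obtain ⟨i, rfl⟩ := mem_zpowers_iff.1 hh
      exact hum.zpow_left i
    haveI : Nonempty {a : A // ∀ h ∈ zpowers u, Commute h (a : G)} := ⟨⟨⟨m, hmA⟩, hmf⟩⟩
    have h2 : 1 < Nat.card {a : A // ∀ h ∈ zpowers u, Commute h (a : G)} :=
      S.prime.one_lt.trans_le (Nat.le_of_dvd Nat.card_pos (Nat.modEq_zero_iff_dvd.1 h1))
    haveI := Finite.one_lt_card_iff_nontrivial.1 h2
    obtain ⟨⟨⟨e, he⟩, hef⟩, hne⟩ := exists_ne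
      (⟨⟨m, hmA⟩, hmf⟩ : {a : A // ∀ h ∈ zpowers u, Commute h (a : G)})
    exact ⟨e, he, fun r => hne (Subtype.ext (Subtype.ext r)), hef _ (mem_zpowers u)⟩
  obtain ⟨e, he, hem, hue⟩ := key (S.swappers c d) hm
    (by rw [S.card_swappers hc hd hn]; exact S.dvd_card_blk hd)
    (fun h hh a ha => S.stab_swappers hc hd (zpowers_le.2 hu hh) ha)
  obtain ⟨b, hb, hbm, hub⟩ := key (S.blk m) ⟨hm.1, Commute.refl m⟩ (S.dvd_card_blk hm.1) (by
    intro h hh a ha
    refine ⟨S.conj_mem h a ha.1, ?_⟩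
    have h1 := S.commute_conj (g := h) ha.2
    obtain ⟨i, rfl⟩ := mem_zpowers_iff.1 hh
    rwa [(hum.zpow_left i).eq, mul_inv_cancel_right] at h1)
  exact S.eq_one_of_commute_triangle hm.1 hb.1 he.1 (S.prod_mem hm.1 hb.1 hb.2 hbm.symm)
    (fun h => hem (S.swappers_far hc hd hn m hm e he h).symm) hum hub hue

/-- Every exchanging member inverts every `p`-element fixing both blocks. -/
theorem inverts {c d y x : G} (hc : c ∈ D) (hd : d ∈ D) (hn : ¬ Commute c d)
    (hy : y ∈ S.stab hc hd) (hpy : ∃ i : ℕ, y ^ p ^ i = 1) (hx : x ∈ S.swappers c d) :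
    x * y * x = y⁻¹ := by
  haveI := Fact.mk S.prime
  obtain ⟨-, hQex⟩ := S.toIsOddClass.far_set (S := S.swappers c d) (fun e he => he.1) hx
    (S.swappers_far hc hd hn) (S.swappers_closed hc hd)
  obtain ⟨Q, hQp, hQc, hQK, hQiff⟩ := hQex fun u hu ho hi hum =>
    S.semiregular hc hd hn (S.closure_swappers_sq hc hd hu ho) hx hum hi
  set W := S.stab hc hd
  have hQW : Q ≤ W := fun v hv => S.closure_swappers_sq hc hd (hQK hv) (by
    obtain ⟨j, hj⟩ := IsPGroup.iff_orderOf.1 hQp ⟨v, hv⟩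
    rw [orderOf_mk] at hj
    rw [hj]
    exact (S.prime.odd_of_ne_two S.ne_two).pow)
  obtain ⟨P, hP⟩ := (hQp.of_equiv (subgroupOfEquivOfLe hQW).symm).exists_le_sylow
  have hPQ : Q.subgroupOf W = P := by
    refine eq_of_le_of_card_ge hP ?_
    rw [Nat.card_congr (subgroupOfEquivOfLe hQW).toEquiv, hQc]
    refine Nat.card_le_card_of_injective
      (fun h : (P : Subgroup W) =>
        (⟨(h : W) * x * ((h : W) : G)⁻¹, S.stab_swappers hc hd (h : W).2 hx⟩ : S.swappers c d))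
      fun h k e => ?_
    have e' : ((h : W) : G) * x * ((h : W) : G)⁻¹ = (k : W) * x * ((k : W) : G)⁻¹ :=
      congrArg Subtype.val e
    obtain ⟨i, hi⟩ := P.2 (k⁻¹ * h)
    have h1 : ((k : W) : G)⁻¹ * (h : W) = 1 := by
      refine S.semiregular hc hd hn (mul_mem (inv_mem (k : W).2) (h : W).2) hx ?_
        ⟨i, congrArg (fun v : (P : Subgroup W) => ((v : W) : G)) hi⟩
      show ((k : W) : G)⁻¹ * (h : W) * x = x * (((k : W) : G)⁻¹ * (h : W))
      calc ((k : W) : G)⁻¹ * (h : W) * x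
          = ((k : W) : G)⁻¹ * ((h : W) * x * ((h : W) : G)⁻¹) * (h : W) := by group
        _ = x * (((k : W) : G)⁻¹ * (h : W)) := by rw [e']; group
    exact Subtype.ext (Subtype.ext (inv_mul_eq_one.1 h1).symm)
  obtain ⟨i, hi⟩ := hpy
  have hyp : IsPGroup p (zpowers (⟨y, hy⟩ : W)) := by
    obtain ⟨j, -, hj⟩ := (Nat.dvd_prime_pow S.prime).1 (orderOf_dvd_of_pow_eq_one hi)
    exact IsPGroup.of_card (n := j) (by rw [Nat.card_zpowers, ← hj, ← orderOf_coe])
  obtain ⟨P', hP'⟩ := hyp.exists_le_sylow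
  obtain ⟨h, hh⟩ := MulAction.exists_smul_eq W P P'
  have hy' : (h⁻¹ * ⟨y, hy⟩ * h : W) ∈ (P : Subgroup W) := by
    have h1 : (⟨y, hy⟩ : W) ∈ ((h • P : Sylow p W) : Subgroup W) := hh ▸ hP' (mem_zpowers _)
    obtain ⟨v, hv, he⟩ := h1
    rw [← he]
    show h⁻¹ * (h * v * h⁻¹) * h ∈ (P : Subgroup W)
    rw [show h⁻¹ * (h * v * h⁻¹) * h = v by group]
    exact hv
  rw [← hPQ, mem_subgroupOf] at hy'
  set v := ((h⁻¹ * ⟨y, hy⟩ * h : W) : G) with hv
  have hvG : v = (h : G)⁻¹ * y * h := rfl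
  have hxh : (h : G)⁻¹ * x * (h : G) ∈ S.swappers c d := by
    simpa using S.stab_swappers hc hd (inv_mem h.2) hx
  obtain ⟨w, hw, hwi, hwx, hall⟩ := (hQiff _).1 hxh
  have hQc' : Commute w v := by
    have h1 := hall (w * v) (mul_mem hw hy')
    have h2 : (x * w * x) * (x * v * x) = x * (w * v) * x := by
      simp [mul_assoc, S.cancel hx.1]
    rw [← h2, hwi, hall v hy', ← mul_inv_rev, inv_inj] at h1
    exact h1.symm
  have h2 : (h : G)⁻¹ * x * h * v * ((h : G)⁻¹ * x * h) = v⁻¹ := by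
    have hxs := S.inv_eq hxh.1
    calc (h : G)⁻¹ * x * h * v * ((h : G)⁻¹ * x * h)
        = (h : G)⁻¹ * x * h * v * ((h : G)⁻¹ * x * h)⁻¹ := by rw [hxs]
      _ = w * x * v * (x⁻¹ * w⁻¹) := by rw [hwx, mul_inv_rev]
      _ = w * (x * v * x) * w⁻¹ := by rw [S.inv_eq hx.1]; simp [mul_assoc]
      _ = v⁻¹ := by rw [hall v hy', hQc'.inv_right.eq, mul_inv_cancel_right]
  rw [hvG] at h2
  calc x * y * x = (h : G) * ((h : G)⁻¹ * x * h * ((h : G)⁻¹ * y * h) * ((h : G)⁻¹ * x * h)) *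
        (h : G)⁻¹ := by group
    _ = y⁻¹ := by rw [h2]; group

end Setting

end CfsgLib.OddTransp
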