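import Cfsg.Agent.Lib.OddTransp.Count

/-!
# The count of blocks: `false_of_setting`
-/

set_option autoImplicit false
set_option linter.style.haveILetI false
set_option linter.unusedSectionVars false

namespace CfsgLib.OddTransp

open Subgroup

variable {G : Type*} [Group G] [Finite G] {p : ℕ} {D : Set G}

namespace Setting

variable (S : Setting p D)
include S

/-- Commutation on the class. -/
def blockSetoid : Setoid D where
  r a b := Commute (a : G) b
  iseqv := ⟨fun a => Commute.refl (a : G), fun h => h.symm,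
    fun {a b c} h1 h2 => S.commute_trans a.2 b.2 c.2 h1 h2⟩

theorem card_preimage {c : G} (hc : c ∈ D) (Φ : Set (Quotient S.blockSetoid)) :
    Nat.card {e : D // Quotient.mk S.blockSetoid e ∈ Φ} = Nat.card Φ * Nat.card (S.blk c) := by
  have hfib : ∀ ω : Quotient S.blockSetoid,
      Nat.card {e : D // Quotient.mk S.blockSetoid e = ω} = Nat.card (S.blk c) := by
    intro ω
    induction ω using Quotient.inductionOn with
    | _ f =>
      rw [S.card_blk hc f.2]
      exact Nat.card_congr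
        { toFun := fun e => ⟨e.1, e.1.2, (Quotient.exact e.2 : Commute (e.1 : G) f).symm⟩
          invFun := fun e => ⟨⟨e.1, e.2.1⟩,
            Quotient.sound (show Commute (e.1 : G) f from e.2.2.symm)⟩
          left_inv := fun e => rfl
          right_inv := fun e => rfl }
  haveI := Fintype.ofFinite Φ
  calc Nat.card {e : D // Quotient.mk S.blockSetoid e ∈ Φ}
      = Nat.card (Σ ω : Φ, {e : D // Quotient.mk S.blockSetoid e = ω.1}) :=
        Nat.card_congr
          { toFun := fun e => ⟨⟨_, e.2⟩, ⟨e.1, rfl⟩⟩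
            invFun := fun q => ⟨q.2.1, q.2.2.symm ▸ q.1.2⟩
            left_inv := fun e => rfl
            right_inv := fun q => by
              obtain ⟨⟨ω, hω⟩, e, (he : Quotient.mk S.blockSetoid e = ω)⟩ := q
              cases he
              rfl }
    _ = Nat.card Φ * Nat.card (S.blk c) := by
        rw [Nat.card_sigma, Finset.sum_congr rfl fun ω _ => hfib ω.1, Finset.sum_const,
          Finset.card_univ, smul_eq_mul, Nat.card_eq_fintype_card (α := Φ)]

/-- The members in the blocks fixed by `y`. -/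
abbrev fixedMembers (_S : Setting p D) (y : G) : Set G := {e | e ∈ D ∧ Commute e (y * e * y⁻¹)}

theorem no_fixed {a a' e : G} (ha : a ∈ D) (ha' : a' ∈ D) (hn : ¬ Commute a a') (he : e ∈ D)
    (h : Commute (a * a') e) : False := by
  have h1 : a * e * a = a' * e * a' := by
    calc a * e * a = a * ((a * a') * e) * (a' * a) * a := by
          rw [h.eq]; simp [mul_assoc, S.sq ha, S.cancel ha, S.cancel ha']
      _ = a' * e * a' := by simp [mul_assoc, S.sq ha, S.cancel ha]
  by_cases hc : Commute a e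
  · refine hn (S.commute_trans ha he ha' hc (?_ : Commute e a'))
    rw [hc.eq, mul_assoc, S.sq ha, mul_one] at h1
    show e * a' = a' * e
    conv_lhs => rw [h1, mul_assoc, S.sq ha', mul_one]
  · exact hn ((S.eq_of_conj_eq ha ha' he hc h1) ▸ Commute.refl a)

/-- A product of two non-commuting members fixes a multiple of `g` members' blocks; the number of
fixed blocks is congruent to the number of all blocks. -/
theorem exists_fixed_count {c : G} (hc : c ∈ D) {a a' : G} (ha : a ∈ D) (ha' : a' ∈ D)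
    (hn : ¬ Commute a a') : ∃ F : ℕ,
      Nat.card (S.fixedMembers (a * a')) = F * Nat.card (S.blk c) ∧
      F ≡ Nat.card (Quotient S.blockSetoid) [MOD p] := by
  haveI := Fact.mk S.prime
  set y := a * a' with hy
  have hH : IsPGroup p (zpowers y) :=
    IsPGroup.of_card (n := 1) (by rw [Nat.card_zpowers, S.orderOf_mul ha ha' hn, pow_one])
  letI : MulAction (zpowers y) (Quotient S.blockSetoid) :=
    { smul := fun h => Quotient.map (fun e => ⟨(h : G) * e * (h : G)⁻¹, S.conj_mem h e e.2⟩)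
        fun e f hef => S.commute_conj hef
      one_smul := fun ω => by
        induction ω using Quotient.inductionOn with
        | _ e => exact congrArg (Quotient.mk _) (Subtype.ext (by simp))
      mul_smul := fun h k ω => by
        induction ω using Quotient.inductionOn with
        | _ e => exact congrArg (Quotient.mk _) (Subtype.ext (by simp [mul_assoc])) }
  refine ⟨Nat.card (MulAction.fixedPoints (zpowers y) (Quotient S.blockSetoid)), ?_,
    (hH.card_modEq_card_fixedPoints _).symm⟩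
  rw [← S.card_preimage hc]
  refine Nat.card_congr
    { toFun := fun e => ⟨⟨e.1, e.2.1⟩, fun h => Quotient.sound ?_⟩
      invFun := fun e => ⟨e.1.1, e.1.2, ?_⟩
      left_inv := fun e => rfl
      right_inv := fun e => rfl }
  · show Commute ((h : G) * e.1 * (h : G)⁻¹) e.1
    have hle : zpowers y ≤ S.stab e.2.1 e.2.1 := zpowers_le.2 ⟨e.2.2.symm, e.2.2.symm⟩
    exact (hle h.2).1
  · exact (Quotient.exact (e.2 ⟨y, mem_zpowers y⟩) : Commute (y * (e.1 : G) * y⁻¹) e.1).symm

/-- The inverters of `y` correspond to the fixed members outside one block. -/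
theorem fixed_eq_inverters {c : G} {a a' : G} (ha : a ∈ D) (ha' : a' ∈ D) (hn : ¬ Commute a a')
    (hc : c ∈ S.fixedMembers (a * a')) :
    ∃ k : ℕ, Nat.card (S.fixedMembers (a * a')) = p ^ k + Nat.card (S.blk c) := by
  set y := a * a' with hy
  have hp : y ^ p = 1 := (S.prod a ha a' ha').resolve_left hn
  have hy1 : y ≠ 1 := fun e => hn (by
    rw [show a' = a from (eq_inv_of_mul_eq_one_right e).trans (S.inv_eq ha)])
  let T : Set G := {x | x ∈ D ∧ x * y * x = y⁻¹}
  have haT : a ∈ T := ⟨ha, by rw [hy, mul_inv_rev, S.inv_eq ha, S.inv_eq ha', S.cancel ha]⟩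
  have hTinv : ∀ x ∈ T, x * y⁻¹ * x = y := fun x hx => by
    rw [← hx.2]; simp [mul_assoc, S.sq hx.1, S.cancel hx.1]
  have hfar : ∀ x ∈ T, ∀ x' ∈ T, Commute x x' → x = x' := by
    intro x hx x' hx' hxx
    by_contra hne
    refine S.no_fixed ha ha' hn (S.prod_mem hx.1 hx'.1 hxx hne) ?_
    show y * (x * x') = x * x' * y
    calc y * (x * x') = x * y⁻¹ * x * (x * x') := by rw [hTinv x hx]
      _ = x * (x' * y * x') * x' := by rw [hx'.2]; simp [mul_assoc, S.cancel hx.1]
      _ = x * x' * y := by simp [mul_assoc, S.sq hx'.1]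
  have hcl : ∀ x ∈ T, ∀ x' ∈ T, x * x' * x ∈ T := fun x hx x' hx' => ⟨S.conj_self_mem hx.1 hx'.1, by
    calc x * x' * x * y * (x * x' * x) = x * (x' * (x * y * x) * x') * x := by
          simp [mul_assoc]
      _ = y⁻¹ := by rw [hx.2, hTinv x' hx', hx.2]⟩
  obtain ⟨⟨k, hk⟩, -⟩ := S.toIsOddClass.far_set (S := T) (fun x hx => hx.1) haT hfar hcl
  refine ⟨k, ?_⟩
  have hsub : S.blk c ⊆ S.fixedMembers y := fun e he => ⟨he.1,
    S.commute_trans he.1 hc.1 (S.conj_mem y e he.1) he.2.symm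
      (S.commute_trans hc.1 (S.conj_mem y c hc.1) (S.conj_mem y e he.1) hc.2 (S.commute_conj he.2))⟩
  rw [← hk, Nat.card_coe_set_eq, Nat.card_coe_set_eq, Nat.card_coe_set_eq,
    ← Set.ncard_diff_add_ncard_of_subset hsub]
  congr 1
  have hmap : ∀ x ∈ T, x * c * x ∈ S.fixedMembers y \ S.blk c := by
    intro x hx
    refine ⟨⟨S.conj_self_mem hx.1 hc.1, ?_⟩, fun hb => ?_⟩
    · have h1 := S.commute_conj (g := x) hc.2
      rw [S.inv_eq hx.1] at h1
      have h2 : x * (y * c * y⁻¹) * x = y⁻¹ * (x * c * x) * y := by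
        calc x * (y * c * y⁻¹) * x = (x * y * x) * (x * c * x) * (x * y⁻¹ * x) := by
              simp [mul_assoc, S.cancel hx.1]
          _ = y⁻¹ * (x * c * x) * y := by rw [hx.2, hTinv x hx]
      rw [h2] at h1
      have h3 := S.commute_conj (g := y) h1
      rw [show y * (y⁻¹ * (x * c * x) * y) * y⁻¹ = x * c * x by group] at h3
      exact h3.symm
    · have hxc : Commute x c := S.commute_of_fix hx.1 hc.1 hb.2
      have h1 : Commute x (y * x * y⁻¹) :=
        S.commute_trans hx.1 hc.1 (S.conj_mem y x hx.1) hxc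
          (S.commute_trans hc.1 (S.conj_mem y c hc.1) (S.conj_mem y x hx.1) hc.2
            (S.commute_conj hxc.symm))
      have h2 : y * x * y⁻¹ = y * y * x := by
        calc y * x * y⁻¹ = y * (x * y⁻¹ * x) * x := by simp [mul_assoc, S.sq hx.1]
          _ = y * y * x := by rw [hTinv x hx]
      rw [h2] at h1
      have h3 : y * y = y⁻¹ * y⁻¹ := by
        calc y * y = y * y * x * x := by simp [mul_assoc, S.sq hx.1]
          _ = x * (y * y * x) := h1.eq.symm
          _ = (x * y * x) * (x * y * x) := by simp [mul_assoc, S.cancel hx.1]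
          _ = y⁻¹ * y⁻¹ := by rw [hx.2]
      have h4 : y * y * (y * y) = 1 := by nth_rw 1 [h3]; group
      have h5 := S.eq_one_of_sq h4 (by rw [(Commute.refl y).mul_pow, hp, one_mul])
      exact hy1 (S.eq_one_of_sq h5 hp)
  rw [← Nat.card_coe_set_eq, ← Nat.card_coe_set_eq]
  refine Nat.card_congr (Equiv.ofBijective
    (fun x : T => (⟨_, hmap x x.2⟩ : ↥(S.fixedMembers y \ S.blk c))) ⟨?_, ?_⟩).symm
  · rintro ⟨x, hx⟩ ⟨x', hx'⟩ he
    refine Subtype.ext (S.eq_of_conj_eq hx.1 hx'.1 hc.1 (fun hxc => (hmap x hx).2 ?_)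
      (congrArg Subtype.val he))
    exact ⟨S.conj_self_mem hx.1 hc.1, by
      rw [hxc.eq, mul_assoc, S.sq hx.1, mul_one]⟩
  · rintro ⟨d, hd, hdn⟩
    have hcd : ¬ Commute c d := fun h => hdn ⟨hd.1, h⟩
    obtain ⟨x, hxD, -, hxc, -, -⟩ := S.exists_mid hc.1 hd.1 hcd
    refine ⟨⟨x, hxD, S.inverts hc.1 hd.1 hcd ⟨hc.2.symm, hd.2.symm⟩ ⟨1, by rwa [pow_one]⟩
      ⟨hxD, hxc ▸ Commute.refl d⟩⟩, Subtype.ext hxc⟩

theorem exists_free {c : G} (hc : c ∈ D) :
    ∃ a ∈ D, ∃ a' ∈ D, ¬ Commute a a' ∧ IsEmpty (S.fixedMembers (a * a')) := by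
  by_contra hall
  push Not at hall
  let Φ := {q : G × G // q.1 ∈ D ∧ q.2 ∈ D ∧ ¬ Commute q.1 q.2}
  have hch : ∀ q : Φ, ∃ e, e ∈ S.fixedMembers (q.1.1 * q.1.2) := fun q => by
    obtain ⟨e, he⟩ := hall _ q.2.1 _ q.2.2.1 q.2.2.2
    exact ⟨e, he⟩
  choose cf hcf using hch
  let Dom := Σ q : Φ, S.blk (cf q)
  let Tgt := Σ q : Φ, {d : S.blk q.1.2 // (d : G) ≠ q.1.2}
  have key : ∀ (q : Φ) (e : S.blk (cf q)),
      ¬ Commute (e : G) (q.1.1 * e * q.1.1) ∧
      Commute (q.1.1 * (e : G) * q.1.1) (q.1.2 * e * q.1.2) ∧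
      q.1.2 * (e : G) * q.1.2 ≠ q.1.1 * e * q.1.1 ∧ ¬ Commute q.1.2 (e : G) ∧
      ¬ Commute q.1.1 (e : G) := by
    rintro ⟨⟨a, a'⟩, ha, ha', hn⟩ ⟨e, he, hce⟩
    obtain ⟨hcD, hcy⟩ := hcf ⟨⟨a, a'⟩, ha, ha', hn⟩
    set y := a * a'
    have hey : Commute e (y * e * y⁻¹) :=
      S.commute_trans he hcD (S.conj_mem y e he) hce.symm
        (S.commute_trans hcD (S.conj_mem y _ hcD) (S.conj_mem y e he) hcy (S.commute_conj hce))
    have h1 := S.commute_conj (g := a) hey
    rw [S.inv_eq ha, show a * (y * e * y⁻¹) * a = a' * e * a' by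
      simp [y, mul_assoc, S.inv_eq ha, S.inv_eq ha', S.cancel ha, S.sq ha]] at h1
    have hna : ¬ Commute a e := fun h => by
      rw [h.eq, mul_assoc, S.sq ha, mul_one] at h1
      have h2 : Commute a' e := S.commute_of_fix ha' he h1
      exact hn (S.commute_trans ha he ha' h h2.symm)
    have hna' : ¬ Commute a' e := fun h => by
      rw [show a' * e * a' = e by rw [h.eq, mul_assoc, S.sq ha', mul_one]] at h1
      exact hna (S.commute_of_fix ha he h1.symm)
    exact ⟨S.not_commute_conj ha he hna, h1,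
      fun h => hn ((S.eq_of_conj_eq ha ha' he hna h.symm) ▸ Commute.refl a), hna', hna⟩
  let f : Dom → Tgt := fun x =>
    ⟨⟨(x.2, x.1.1.1 * x.2 * x.1.1.1), x.2.2.1, S.conj_self_mem x.1.2.1 x.2.2.1, (key x.1 x.2).1⟩,
      ⟨⟨x.1.1.2 * x.2 * x.1.1.2, S.conj_self_mem x.1.2.2.1 x.2.2.1, (key x.1 x.2).2.1⟩,
        (key x.1 x.2).2.2.1⟩⟩
  have hf : Function.Injective f := by
    intro x x' h
    have h1 : ((x.2 : G), x.1.1.1 * (x.2 : G) * x.1.1.1) =
        ((x'.2 : G), x'.1.1.1 * (x'.2 : G) * x'.1.1.1) :=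
      congrArg (fun t : Tgt => t.1.1) h
    have h2 : x.1.1.2 * (x.2 : G) * x.1.1.2 = x'.1.1.2 * (x'.2 : G) * x'.1.1.2 :=
      congrArg (fun t : Tgt => ((t.2.1 : S.blk t.1.1.2) : G)) h
    obtain ⟨e1, e2⟩ := Prod.ext_iff.1 h1
    simp only at e1 e2
    rw [← e1] at e2 h2
    have ea := S.eq_of_conj_eq x.1.2.1 x'.1.2.1 x.2.2.1 (key x.1 x.2).2.2.2.2 e2
    have eb := S.eq_of_conj_eq x.1.2.2.1 x'.1.2.2.1 x.2.2.1 (key x.1 x.2).2.2.2.1 h2
    exact Sigma.subtype_ext (Subtype.ext (Prod.ext ea eb)) e1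
  have hle := Nat.card_le_card_of_injective f hf
  haveI := Fintype.ofFinite Φ
  have h1 : Nat.card Dom = Nat.card Φ * Nat.card (S.blk c) := by
    rw [Nat.card_sigma, Finset.sum_congr rfl fun q _ => S.card_blk (hcf q).1 hc,
      Finset.sum_const, Finset.card_univ, smul_eq_mul, Nat.card_eq_fintype_card (α := Φ)]
  have h2 : Nat.card Tgt = Nat.card Φ * (Nat.card (S.blk c) - 1) := by
    rw [Nat.card_sigma, Finset.sum_congr rfl fun q _ => ?_, Finset.sum_const, Finset.card_univ,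
      smul_eq_mul, Nat.card_eq_fintype_card (α := Φ)]
    classical
    haveI := Fintype.ofFinite (S.blk q.1.2)
    have := Fintype.card_subtype_compl (fun d : S.blk q.1.2 => (d : G) = q.1.2)
    rw [Nat.card_eq_fintype_card, this, ← Nat.card_eq_fintype_card, ← Nat.card_eq_fintype_card,
      S.card_blk q.2.2.1 hc]
    congr 1
    refine Nat.card_eq_one_iff_unique.2 ⟨⟨fun u v => Subtype.ext (Subtype.ext (u.2.trans v.2.symm))⟩,
      ⟨⟨⟨q.1.2, q.2.2.1, Commute.refl _⟩, rfl⟩⟩⟩
  obtain ⟨a, ha, x, hx, hne⟩ := S.far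
  haveI : Nonempty Φ := ⟨⟨(a, x), ha, hx, hne⟩⟩
  haveI : Nonempty (S.blk c) := ⟨⟨c, hc, Commute.refl c⟩⟩
  have hpos : 0 < Nat.card Φ := Nat.card_pos
  have hg : 0 < Nat.card (S.blk c) := Nat.card_pos
  rw [h1, h2] at hle
  have := Nat.le_of_mul_le_mul_left hle hpos
  omega

theorem false_of_setting : False := by
  haveI := Fact.mk S.prime
  obtain ⟨c, hc, d, hd, hn⟩ := S.far
  have hgc := S.card_blk hc hd
  -- two swappers, so a product fixing the block of `c`
  haveI : Nonempty (S.blk c) := ⟨⟨c, hc, Commute.refl c⟩⟩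
  have hg2 : 1 < Nat.card (S.swappers c d) := by
    rw [S.card_swappers hc hd hn, ← hgc]
    exact S.prime.one_lt.trans_le (Nat.le_of_dvd Nat.card_pos (S.dvd_card_blk hc))
  haveI := Finite.one_lt_card_iff_nontrivial.1 hg2
  obtain ⟨⟨x, hx⟩, ⟨x', hx'⟩, hxx⟩ := exists_pair_ne (S.swappers c d)
  have hne : ¬ Commute x x' := fun e => hxx (Subtype.ext (S.swappers_far hc hd hn x hx x' hx' e))
  have hst : x * x' ∈ S.stab hc hd := S.closure_swappers_sq hc hd
    (mul_mem (Subgroup.subset_closure hx) (Subgroup.subset_closure hx'))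
    (by rw [S.orderOf_mul hx.1 hx'.1 hne]; exact S.prime.odd_of_ne_two S.ne_two)
  obtain ⟨k, hk⟩ := S.fixed_eq_inverters hx.1 hx'.1 hne (c := c) ⟨hc, hst.1.symm⟩
  obtain ⟨⟨t, ht⟩, -⟩ := S.toIsOddClass.far_set (S := S.swappers c d) (fun e he => he.1) hx
    (S.swappers_far hc hd hn) (S.swappers_closed hc hd)
  rw [S.card_swappers hc hd hn, ← hgc] at ht
  obtain ⟨F, hF, hFN⟩ := S.exists_fixed_count hc hx.1 hx'.1 hne
  obtain ⟨a, ha, a', ha', hna, hempty⟩ := S.exists_free hc
  obtain ⟨F₀, hF₀, hF₀N⟩ := S.exists_fixed_count hc ha ha' hna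
  rw [Nat.card_of_isEmpty] at hF₀
  have hF₀0 : F₀ = 0 := (mul_eq_zero.1 hF₀.symm).resolve_right Nat.card_pos.ne'
  have hpF : p ∣ F := Nat.modEq_zero_iff_dvd.1 (hF₀0 ▸ hFN.trans hF₀N.symm)
  rw [hk, ht] at hF
  have hp1 := S.prime.one_lt
  have hFge : 1 ≤ F := Nat.pos_of_ne_zero fun h => by
    rw [h, zero_mul] at hF
    have : 0 < p ^ t := pow_pos S.prime.pos t
    omega
  obtain ⟨G₁, rfl⟩ : ∃ G₁, F = G₁ + 1 := ⟨F - 1, by omega⟩
  rw [add_mul, one_mul, add_left_inj] at hF
  obtain ⟨i, -, hi⟩ := (Nat.dvd_prime_pow S.prime).1 (Dvd.intro _ hF.symm : G₁ ∣ p ^ k)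
  rcases Nat.eq_zero_or_pos i with rfl | hi0
  · rw [hi, pow_zero] at hpF
    exact S.ne_two ((Nat.prime_dvd_prime_iff_eq S.prime Nat.prime_two).1 hpF)
  · have : p ∣ G₁ := hi ▸ dvd_pow_self p hi0.ne'
    exact S.prime.not_dvd_one ((Nat.dvd_add_right this).1 hpF)

end Setting

end CfsgLib.OddTransp
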