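import Cfsg.Agent.Lib.OddTransp.Pattern
import Cfsg.Agent.Lib.Cores.PCore
import Cfsg.Agent.Lib.Involutions.BrauerSuzuki
import Cfsg.Agent.S0205

/-!
# A generating class with products of order `1`, `2`, `p` in a group without solvable radical

If such a class is not commutative then `p = 3`.
-/

set_option autoImplicit false
set_option linter.style.haveILetI false

namespace CfsgLib.OddTransp

open Subgroup

universe u

variable {G : Type u} [Group G] [Finite G] {p : ℕ} {D : Set G}

namespace IsOddClass

variable (h : IsOddClass p D)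
include h

/-- Commuting members `a`, `b` commute with the same members, if some member is far from both. -/
theorem twin (hp3 : p ≠ 3) {a b c : G}
    (ha : a ∈ D) (hb : b ∈ D) (hc : c ∈ D) (hab : Commute a b) (hne : a ≠ b)
    (hca : ¬ Commute c a) (hcb : ¬ Commute c b) :
    (∀ e ∈ D, Commute e a → Commute e b) ∧
      Commute c (a * b * c * (a * b)⁻¹) := by
  set z := a * b with hz
  have hzz : z * z = 1 := by
    rw [hz, ← hab.mul_mul_mul_comm, h.sq ha, h.sq hb, one_mul]
  have hzi : z⁻¹ = z := inv_eq_of_mul_eq_one_right hzz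
  have hza : Commute z a := (Commute.refl a).mul_left hab.symm
  set d := z * c * z with hd
  have hdD : d ∈ D := by simpa [hd, hzi] using h.conj_mem z c hc
  have hzd : z * d * z = c := by
    calc z * (z * c * z) * z = (z * z) * c * (z * z) := by group
      _ = c := by rw [hzz, one_mul, mul_one]
  have hcd : Commute c d := by
    by_contra hn
    obtain ⟨m, hm, -, hmc, hmd, hnm⟩ := h.exists_mid hc hdD hn
    have hmz : Commute m z := h.commute_of_conj_pair hm hc hnm hzz (by rw [hmc])
    have hma := h.commute_left ha hb hm hab hne hmz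
    have hmb := h.commute_right ha hb hm hab hne hmz
    have h1 : m ≠ a := by
      rintro rfl
      refine hcb ?_
      have h2 : m * (b * c * b) * m = m * c * m := by
        calc m * (b * c * b) * m = z * c * z := by
              rw [hz]; conv_rhs => arg 2; rw [hab.eq]
              group
          _ = m * c * m := hmc.symm
      have h3 : b * c * b = c := mul_left_cancel (mul_right_cancel h2)
      show c * b = b * c
      calc c * b = b * c * b * b := by rw [h3]
        _ = b * c := by rw [mul_assoc, h.sq hb, mul_one]
    have h1' : m ≠ b := by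
      rintro rfl
      refine hca ?_
      have h2 : m * (a * c * a) * m = m * c * m := by
        calc m * (a * c * a) * m = z * c * z := by
              rw [hz]; conv_rhs => arg 1; arg 1; rw [hab.eq]
              group
          _ = m * c * m := hmc.symm
      have h3 : a * c * a = c := mul_left_cancel (mul_right_cancel h2)
      show c * a = a * c
      calc c * a = a * c * a * a := by rw [h3]
        _ = a * c := by rw [mul_assoc, h.sq ha, mul_one]
    refine hca (h.commute_of_three ha hb hm hc hab hma.symm hmb.symm hne h1 h1' ?_).symm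
    -- `z * m` fixes `c`
    show c * (z * m) = z * m * c
    calc c * (z * m) = z * (z * c * z) * m := by
          calc c * (z * m) = (z * z) * c * z * m := by rw [hzz, one_mul]; exact (mul_assoc c z m).symm
            _ = z * (z * c * z) * m := by group
      _ = z * (m * c * m) * m := by rw [hmc]
      _ = z * m * c * (m * m) := by group
      _ = z * m * c := by rw [h.sq hm, mul_one]
  refine ⟨?_, by rw [hzi]; exact hcd⟩
  have hcdne : c ≠ d := fun e => hca (h.commute_left ha hb hc hab hne (by
    show c * z = z * c
    calc c * z = z * c * z * z := by rw [← hd, ← e]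
      _ = z * c := by rw [mul_assoc, hzz, mul_one]))
  set z' := c * d with hz'
  have hz'z' : z' * z' = 1 := by
    rw [hz', ← hcd.mul_mul_mul_comm, h.sq hc, h.sq hdD, one_mul]
  have hz'i : z'⁻¹ = z' := inv_eq_of_mul_eq_one_right hz'z'
  have hzz' : Commute z z' := by
    show z * z' = z' * z
    calc z * (c * d) = (z * c * z) * (z * d * z) * z := by
          calc z * (c * d) = z * c * (z * z) * d * (z * z) := by rw [hzz]; group
            _ = (z * c * z) * (z * d * z) * z := by group
      _ = c * d * z := by rw [hzd, ← hd, hcd.eq]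
  set a' := z' * a * z' with ha'
  have ha'D : a' ∈ D := by simpa [ha', hz'i] using h.conj_mem z' a ha
  have hza' : Commute z a' := (hzz'.mul_right hza).mul_right hzz'
  have ha'a := h.commute_left ha hb ha'D hab hne hza'.symm
  have ha'b := h.commute_right ha hb ha'D hab hne hza'.symm
  have ha'ne : a' ≠ a := fun e => hca (h.commute_left hc hdD ha hcd hcdne (by
    show a * z' = z' * a
    calc a * z' = z' * a * z' * z' := by rw [← ha', e]
      _ = z' * a := by rw [mul_assoc, hz'z', mul_one])).symm
  by_cases hcase : a' = b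
  · -- `c * a` permutes `z, z'z, z'` cyclically
    exfalso
    set y := c * a with hy
    have hyp : y ^ p = 1 := (h.prod c hc a ha).resolve_left hca
    have hcz : c * z * c = z' * z := by
      calc c * z * c = c * (z * c * z) * z := by
            calc c * z * c = c * z * c * (z * z) := by rw [hzz, mul_one]
              _ = c * (z * c * z) * z := by group
        _ = z' * z := by rw [← hd]
    have hcz' : c * z' * c = z' := by
      calc c * (c * d) * c = (c * c) * d * c := by group
        _ = c * d := by rw [h.sq hc, one_mul, hcd.eq]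
    have haz : a * z * a = z := by
      rw [← hza.eq, mul_assoc, h.sq ha, mul_one]
    have haz' : a * z' * a = z * z' := by
      calc a * z' * a = a * (z' * a * z') * z' := by
            calc a * z' * a = a * z' * a * (z' * z') := by rw [hz'z', mul_one]
              _ = a * (z' * a * z') * z' := by group
        _ = z * z' := by rw [← ha', hcase]
    have hyi : y⁻¹ = a * c := by rw [hy, mul_inv_rev, h.inv_eq ha, h.inv_eq hc]
    have e1 : y * z * y⁻¹ = z' * z := by
      rw [hyi, ← hcz]
      conv_rhs => rw [← haz]
      rw [hy]; group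
    have e2 : y * (z' * z) * y⁻¹ = z' := by
      rw [hyi, hy]
      calc c * a * (z' * z) * (a * c) = c * ((a * z' * a) * (a * z * a)) * c := by
            calc c * a * (z' * z) * (a * c) = c * (a * z' * (a * a) * z * a) * c := by
                  rw [h.sq ha]; group
              _ = _ := by group
        _ = c * (z * z' * z) * c := by rw [haz', haz]
        _ = c * z' * c := by rw [hzz'.eq, mul_assoc z' z z, hzz, mul_one]
        _ = z' := hcz'
    have e3 : y * z' * y⁻¹ = z := by
      rw [hyi, hy]
      calc c * a * z' * (a * c) = c * (a * z' * a) * c := by group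
        _ = c * (z * z') * c := by rw [haz']
        _ = (c * z * c) * (c * z' * c) := by
            calc c * (z * z') * c = c * z * (c * c) * z' * c := by rw [h.sq hc]; group
              _ = _ := by group
        _ = z := by rw [hcz, hcz', mul_assoc, hzz'.eq, ← mul_assoc, hz'z', one_mul]
    have hc3 : Commute (y ^ 3) z := by
      have f1 := mul_inv_eq_iff_eq_mul.1 e1
      have f2 := mul_inv_eq_iff_eq_mul.1 e2
      have f3 := mul_inv_eq_iff_eq_mul.1 e3
      show y ^ 3 * z = z * y ^ 3
      have h3' : y ^ 3 = y * y * y := by rw [pow_succ, pow_two]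
      rw [h3']
      calc y * y * y * z = y * (y * (y * z)) := by group
        _ = y * (y * (z' * z) * y) := by rw [f1, ← mul_assoc y (z' * z) y]
        _ = y * z' * y * y := by rw [f2]; group
        _ = z * (y * y * y) := by rw [f3]; group
    have hy1 : Commute y z := by
      obtain ⟨k, hk⟩ : y ∈ zpowers (y ^ 3) := by
        refine (mem_zpowers_iff).2 ?_
        have hcop : Nat.Coprime 3 (orderOf y) := by
          rw [h.orderOf_mul hc ha hca]
          exact (Nat.coprime_primes Nat.prime_three h.prime).2 fun e => hp3 e.symm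
        obtain ⟨m, hm⟩ := exists_pow_eq_self_of_coprime hcop
        exact ⟨m, by rw [zpow_natCast, hm]⟩
      exact hk ▸ hc3.zpow_left k
    have h3 : z' * z = z := by rw [← e1, hy1.eq, mul_inv_cancel_right]
    exact hcdne ((eq_inv_of_mul_eq_one_left (mul_eq_right.1 h3)).trans (h.inv_eq hdD))
  · -- `a = b * a' * b'`
    set b' := z' * b * z' with hb'
    have hb'D : b' ∈ D := by simpa [hb', hz'i] using h.conj_mem z' b hb
    have hzb : Commute z b := hab.mul_left (Commute.refl b)
    have hzb' : Commute z b' := (hzz'.mul_right hzb).mul_right hzz'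
    have hb'b := h.commute_right ha hb hb'D hab hne hzb'.symm
    have hconj : ∀ {u v : G}, Commute u v → Commute (z' * u * z') (z' * v * z') := fun huv => by
      simpa [hz'i] using (Commute.conj_iff z').2 huv
    have ha'b' : Commute a' b' := hconj hab
    have hbb' : b' ≠ b := fun e => hcb (h.commute_left hc hdD hb hcd hcdne (by
      show b * z' = z' * b
      calc b * z' = z' * b * z' * z' := by rw [← hb', e]
        _ = z' * b := by rw [mul_assoc, hz'z', mul_one])).symm
    have ha'b'ne : b' ≠ a' := fun e => hne (mul_left_cancel (mul_right_cancel e)).symm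
    have hab' : a' * b' = z := by
      calc a' * b' = z' * a * (z' * z') * b * z' := by rw [ha', hb']; group
        _ = z' * z * z' := by rw [hz'z', hz]; group
        _ = z := by rw [← hzz'.eq, mul_assoc, hz'z', mul_one]
    have hprod : b * a' * b' = a := by
      rw [mul_assoc, hab', hz, hab.eq, ← mul_assoc, h.sq hb, one_mul]
    intro e he hea
    exact (h.commute_of_three hb ha'D hb'D he ha'b.symm hb'b.symm ha'b' (fun r => hcase r.symm)
      hbb' ha'b'ne (hprod.symm ▸ hea)).symm

/-- **No `p`-transpositions for `p ≥ 5`.** -/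
theorem eq_three (hsol : ∀ N : Subgroup G, N.Normal → Group.IsSolvable ↥N → N = ⊥)
    (hclass : ∀ a ∈ D, ∀ b ∈ D, IsConj a b) (hgen : closure D = ⊤)
    (hfar : ∃ a ∈ D, ∃ x ∈ D, ¬ Commute a x) : p = 3 := by
  by_contra hp3
  obtain ⟨a₀, ha₀, x₀, hx₀, hfar₀⟩ := hfar
  haveI : Fact (Nat.Prime 2) := ⟨Nat.prime_two⟩
  have hcent : ∀ a ∈ D, ¬ ∀ x ∈ D, Commute a x := fun a ha hall => by
    have h1 : a ∈ center G := by
      rw [mem_center_iff]
      intro g
      have hle : closure D ≤ centralizer {a} := (closure_le _).2 fun x hx =>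
        mem_centralizer_singleton_iff.2 (hall x hx).symm.eq
      exact mem_centralizer_singleton_iff.1 (hle (hgen ▸ mem_top g))
    rw [hsol (center G) inferInstance (Group.isSolvable_of_comm fun u v => mul_comm' u v), mem_bot] at h1
    exact h.ne_one ha h1
  let R : G → G → Prop := fun x y => ¬ Commute x y ∨ ∀ e ∈ D, (Commute e x ↔ Commute e y)
  have hsymm : ∀ {x y}, R x y → R y x := fun {x y} hR =>
    hR.imp (fun h1 h2 => h1 h2.symm) fun h1 e he => (h1 e he).symm
  have htrans : ∀ {x y z}, x ∈ D → y ∈ D → z ∈ D → R x y → R y z → R x z := by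
    intro x y z hx hy hz hxy hyz
    by_cases hxz : Commute x z
    · rcases eq_or_ne x z with rfl | hne
      · exact Or.inr fun e _ => Iff.rfl
      rcases hxy with h1 | h1
      · rcases hyz with h2 | h2
        · exact Or.inr fun e he =>
            ⟨(h.twin hp3 hx hz hy hxz hne (fun e => h1 e.symm) h2).1 e he,
              (h.twin hp3 hz hx hy hxz.symm hne.symm h2 (fun e => h1 e.symm)).1 e he⟩
        · exact absurd ((h2 x hx).2 hxz) h1
      · rcases hyz with h2 | h2
        · exact absurd ((h1 z hz).1 hxz.symm).symm h2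
        · exact Or.inr fun e he => (h1 e he).trans (h2 e he)
    · exact Or.inl hxz
  have hall : ∀ g : G, ∀ x ∈ D, R x (g * x * g⁻¹) := by
    intro g
    refine closure_induction (p := fun g _ => ∀ x ∈ D, R x (g * x * g⁻¹)) ?_ ?_ ?_ ?_
      (hgen.symm ▸ mem_top g)
    · intro d hd x hx
      rw [h.inv_eq hd]
      by_cases hc : Commute d x
      · rw [hc.eq, mul_assoc, h.sq hd, mul_one]
        exact Or.inr fun e _ => Iff.rfl
      · exact Or.inl (h.not_commute_conj hd hx hc)
    · intro x _
      exact Or.inr fun e _ => by simp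
    · intro g k _ _ ihg ihk x hx
      have h1 := h.conj_mem k x hx
      have h2 := htrans hx h1 (h.conj_mem g _ h1) (ihk x hx) (ihg _ h1)
      simpa [mul_assoc] using h2
    · intro g _ ih x hx
      have h1 := ih _ (h.conj_mem g⁻¹ x hx)
      refine hsymm ?_
      simpa [mul_assoc] using h1
  have htwin : ∀ x ∈ D, ∀ y ∈ D, Commute x y → ∀ e ∈ D, Commute e x → Commute e y := by
    intro x hx y hy hxy e he hex
    obtain ⟨g, rfl⟩ := isConj_iff.1 (hclass x hx y hy)
    exact (((hall g x hx).resolve_left (not_not.2 hxy)) e he).1 hex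
  by_cases hnear : ∃ a ∈ D, ∃ b ∈ D, Commute a b ∧ a ≠ b
  · obtain ⟨a, ha, b, hb, hab, hne⟩ := hnear
    -- elements moving every member within its block
    let N : Subgroup G :=
      { carrier := {g | ∀ c ∈ D, Commute c (g * c * g⁻¹)}
        one_mem' := fun c _ => by simp
        mul_mem' := fun {g k} hg hk c hc => by
          have h1 := h.conj_mem k c hc
          have h2 := htwin _ h1 _ (h.conj_mem g _ h1) (hg _ h1) c hc (hk c hc)
          simpa [mul_assoc] using h2
        inv_mem' := fun {g} hg c hc => by
          have h1 := hg _ (h.conj_mem g⁻¹ c hc)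
          simpa [mul_assoc] using h1.symm }
    have hNn : N.Normal := ⟨fun n hn g c hc => by
      have h1 := (Commute.conj_iff g).2 (hn _ (h.conj_mem g⁻¹ c hc))
      simpa [mul_assoc] using h1⟩
    have hzz : a * b * (a * b) = 1 := by
      rw [← hab.mul_mul_mul_comm, h.sq ha, h.sq hb, one_mul]
    have hzN : a * b ∈ N := by
      intro c hc
      by_cases hca : Commute c a
      · have hcb := htwin a ha b hb hab c hc hca
        rw [(hca.mul_right hcb).symm.eq, mul_inv_cancel_right]
      · exact (h.twin hp3 ha hb hc hab hne hca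
          (fun e => hca (htwin b hb a ha hab.symm c hc e))).2
    set A : Subgroup G := closure {e | e ∈ D ∧ Commute e a} ⊓ N with hA
    have hblk : ∀ e ∈ {e | e ∈ D ∧ Commute e a}, ∀ f ∈ {e | e ∈ D ∧ Commute e a},
        Commute e f := fun e he f hf => htwin a ha f hf.1 hf.2.symm e he.1 he.2
    haveI : IsMulCommutative (closure {e | e ∈ D ∧ Commute e a}) :=
      isMulCommutative_closure fun e he f hf => (hblk e he f hf).eq
    have hA2 : IsPGroup 2 A := by
      rintro ⟨y, hy⟩
      refine ⟨1, Subtype.ext ?_⟩
      show y ^ 2 ^ 1 = 1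
      rw [pow_one]
      refine closure_induction (p := fun y _ => y ^ 2 = 1) (fun e he => ?_) (one_pow 2)
        (fun u v hu hv ihu ihv => ?_) (fun u _ ih => ?_) hy.1
      · rw [pow_two, h.sq he.1]
      · have huv : Commute u v :=
          congrArg Subtype.val (mul_comm' (⟨u, hu⟩ : Subgroup.closure {e | e ∈ D ∧ Commute e a}) ⟨v, hv⟩)
        rw [huv.mul_pow, ihu, ihv, one_mul]
      · rw [inv_pow, ih, inv_one]
    haveI hAn : (A.subgroupOf N).Normal := ⟨fun y hy g => by
      have hgK : closure {e | e ∈ D ∧ Commute e a} ≤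
          (closure {e | e ∈ D ∧ Commute e a}).comap (MulAut.conj (g : G)).toMonoidHom :=
        (closure_le _).2 fun e he => subset_closure
          (show MulAut.conj (g : G) e ∈ {e | e ∈ D ∧ Commute e a} by
            simp only [MulAut.conj_apply]
            exact ⟨h.conj_mem g e he.1, (htwin e he.1 a ha he.2 _ (h.conj_mem g e he.1)
              (g.2 e he.1).symm)⟩)
      exact mem_subgroupOf.2 ⟨hgK (mem_subgroupOf.1 hy).1, N.mul_mem (N.mul_mem g.2 y.2) (N.inv_mem g.2)⟩⟩
    have h1 : (A.subgroupOf N).map N.subtype ≤ Cfsg.pCore 2 G :=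
      (map_mono (CfsgLib.Cores.le_pCore
        (hA2.of_equiv (subgroupOfEquivOfLe (inf_le_right : A ≤ N)).symm))).trans
        (CfsgLib.Cores.map_subtype_pCore_le hNn.isSubnormal)
    have hbot : Cfsg.pCore 2 G = ⊥ := by
      haveI := (CfsgLib.Cores.isPGroup_pCore 2 G).isNilpotent
      exact hsol _ inferInstance inferInstance
    have hzA : a * b ∈ A := ⟨mul_mem (subset_closure ⟨ha, Commute.refl a⟩)
      (subset_closure ⟨hb, hab.symm⟩), hzN⟩
    have h2 := h1 (mem_map_of_mem N.subtype (show (⟨a * b, hzN⟩ : N) ∈ A.subgroupOf N from hzA))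
    rw [hbot, mem_bot] at h2
    exact hne ((eq_inv_of_mul_eq_one_left h2).trans (h.inv_eq hb))
  · push Not at hnear
    have hm2 := h.order_two a₀ ha₀
    obtain ⟨P, hP⟩ := (IsPGroup.of_card (p := 2) (n := 1) (G := zpowers a₀)
      (by rw [Nat.card_zpowers, hm2, pow_one])).exists_le_sylow
    have hiso : ∀ g : G, g * a₀ * g⁻¹ ∈ P → g * a₀ * g⁻¹ = a₀ := by
      intro g hg
      refine hnear _ (h.conj_mem g a₀ ha₀) _ ha₀ ?_
      by_contra hn
      obtain ⟨j, hj⟩ := (IsPGroup.iff_orderOf.1 P.2)
        ⟨g * a₀ * g⁻¹ * a₀, mul_mem hg (hP (mem_zpowers a₀))⟩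
      rw [orderOf_mk, h.orderOf_mul (h.conj_mem g a₀ ha₀) ha₀ hn] at hj
      exact h.ne_two ((Nat.prime_dvd_prime_iff_eq h.prime Nat.prime_two).1
        (h.prime.dvd_of_dvd_pow (n := j) (dvd_of_eq hj)))
    have hO : Cfsg.oddCore G = ⊥ :=
      hsol _ inferInstance (Cfsg.Agent.S0205.result CfsgLib.Cores.odd_card_oddCore)
    have hcz := CfsgLib.Involutions.mem_center_of_isolated P hm2 hiso hO
    exact hfar₀ (mem_center_iff.1 hcz x₀).symm

end IsOddClass

end CfsgLib.OddTransp
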