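import Cfsg.Agent.Lib.OddTransp.Final

/-!
# A commuting triangle of members commutes with every member

If `a`, `b` and `a * b` lie in a class with products of order `1`, `2` or `p`, then `a` commutes with
every member.  A smallest counterexample would be a `Setting`.
-/

set_option autoImplicit false
set_option linter.style.haveILetI false

namespace CfsgLib.OddTransp

open Subgroup

universe u

/-- The members inside a subgroup. -/
theorem IsOddClass.restrict {G : Type*} [Group G] {p : ℕ} {D : Set G} (h : IsOddClass p D)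
    (H : Subgroup G) : IsOddClass p {k : H | (k : G) ∈ D} where
  prime := h.prime
  ne_two := h.ne_two
  order_two d hd := by rw [← orderOf_coe]; exact h.order_two d hd
  conj_mem g d hd := by simpa using h.conj_mem g d hd
  prod d hd e he := (h.prod d hd e he).imp (fun hc => Subtype.ext hc.eq)
    fun hp => Subtype.ext (by simpa using hp)

/-- The non-trivial images in a quotient. -/
theorem IsOddClass.map_mk {G : Type*} [Group G] {p : ℕ} {D : Set G} (h : IsOddClass p D)
    (N : Subgroup G) [N.Normal] :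
    IsOddClass p {q : G ⧸ N | ∃ d ∈ D, (d : G ⧸ N) = q ∧ q ≠ 1} where
  prime := h.prime
  ne_two := h.ne_two
  order_two := by
    rintro _ ⟨d, hd, rfl, hne⟩
    haveI := Fact.mk Nat.prime_two
    refine orderOf_eq_prime ?_ hne
    rw [← QuotientGroup.mk_pow, pow_two, h.sq hd, QuotientGroup.mk_one]
  conj_mem := by
    rintro g _ ⟨d, hd, rfl, hne⟩
    obtain ⟨g, rfl⟩ := QuotientGroup.mk_surjective g
    refine ⟨g * d * g⁻¹, h.conj_mem g d hd, by simp, fun e => hne ?_⟩
    exact conj_eq_one_iff.1 e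
  prod := by
    rintro _ ⟨d, hd, rfl, -⟩ _ ⟨e, he, rfl, -⟩
    refine (h.prod d hd e he).imp (fun hc => ?_) fun hp => ?_
    · exact hc.map (QuotientGroup.mk' N)
    · rw [← QuotientGroup.mk_mul, ← QuotientGroup.mk_pow, hp, QuotientGroup.mk_one]

theorem pattern_aux (n : ℕ) : ∀ (G : Type u) [Group G] [Finite G], Nat.card G = n →
    ∀ (p : ℕ) (D : Set G), IsOddClass p D → ∀ a ∈ D, ∀ b ∈ D, a * b ∈ D →
      ∀ x ∈ D, Commute a x := by
  induction n using Nat.strong_induction_on with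
  | _ n ih =>
  intro G _ _ hn p D h a₀ ha₀ b₀ hb₀ hab₀ x₀ hx₀
  by_contra hne₀
  -- a triangle and a member far from it generate
  have gen : ∀ a ∈ D, ∀ b ∈ D, ∀ x ∈ D, a * b ∈ D → ¬ Commute a x →
      closure {a, b, x} = ⊤ := by
    intro a ha b hb x hx hab hne
    by_contra hK
    have hlt : Nat.card (closure {a, b, x}) < n :=
      hn ▸ lt_of_le_of_ne (card_le_card_group _) fun e => hK (eq_top_of_card_eq _ e)
    have h1 := ih _ hlt _ rfl p _ (h.restrict (closure {a, b, x}))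
      ⟨a, subset_closure (by simp)⟩ ha ⟨b, subset_closure (by simp)⟩ hb hab
      ⟨x, subset_closure (by simp)⟩ hx
    exact hne (congrArg Subtype.val h1.eq)
  -- simplicity
  have simple : ∀ N : Subgroup G, N.Normal → N = ⊥ ∨ N = ⊤ := by
    intro N hN
    by_contra hc
    push Not at hc
    have hnear : ∀ d ∈ D, ∀ y ∈ D, ¬ Commute d y → (d ∈ N ↔ y ∈ N) := by
      intro d hd y hy hdy
      obtain ⟨g, hg⟩ := isConj_iff.1 (h.isConj_of_not_commute hd hy hdy)
      refine ⟨fun hm => hg ▸ hN.conj_mem d hm g, fun hm => ?_⟩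
      rw [← hg] at hm
      simpa [mul_assoc] using hN.conj_mem _ hm g⁻¹
    -- `b` and `a * b` are as far from `x` as `a`
    obtain ⟨hab, -, -⟩ := h.triangle ha₀ hb₀ hab₀ ha₀ (Commute.refl a₀)
    have hbx : ¬ Commute b₀ x₀ := fun e =>
      hne₀ (h.triangle hb₀ ha₀ (hab.eq ▸ hab₀) hx₀ e.symm).2.2.symm
    have habx : ¬ Commute (a₀ * b₀) x₀ := fun e => hne₀ (h.triangle hab₀ ha₀
      (by rw [hab.eq, mul_assoc, h.sq ha₀, mul_one]; exact hb₀) hx₀ e.symm).2.2.symm
    have hxN : x₀ ∉ N := fun hm => by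
      have h1 := (hnear a₀ ha₀ x₀ hx₀ hne₀).2 hm
      have h2 := (hnear b₀ hb₀ x₀ hx₀ hbx).2 hm
      refine hc.2 (eq_top_iff.2 ?_)
      rw [← gen a₀ ha₀ b₀ hb₀ x₀ hx₀ hab₀ hne₀, closure_le]
      rintro y (rfl | rfl | rfl) <;> assumption
    have hlt : Nat.card (G ⧸ N) < n := by
      have h1 := card_eq_card_quotient_mul_card_subgroup N
      have h2 : 1 < Nat.card N := (one_lt_card_iff_ne_bot N).2 hc.1
      rw [← hn, h1]
      exact lt_mul_of_one_lt_right Nat.card_pos h2
    have hmem : ∀ d ∈ D, d ∉ N → (d : G ⧸ N) ∈ {q : G ⧸ N | ∃ d ∈ D, (d : G ⧸ N) = q ∧ q ≠ 1} :=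
      fun d hd hdN => ⟨d, hd, rfl, fun e => hdN ((QuotientGroup.eq_one_iff d).1 e)⟩
    have key : ∀ a ∈ D, ∀ b ∈ D, a * b ∈ D → ¬ Commute a x₀ → ¬ Commute b x₀ →
        ¬ Commute (a * b) x₀ → (x₀ : G ⧸ N) = (a : G ⧸ N) := by
      intro a ha b hb hab h1 h2 h3
      have haN : a ∉ N := fun e => hxN ((hnear a ha x₀ hx₀ h1).1 e)
      have hbN : b ∉ N := fun e => hxN ((hnear b hb x₀ hx₀ h2).1 e)
      have habN : a * b ∉ N := fun e => hxN ((hnear _ hab x₀ hx₀ h3).1 e)
      have hcomm := ih _ hlt (G ⧸ N) rfl p _ (h.map_mk N) _ (hmem a ha haN) _ (hmem b hb hbN)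
        (by simpa using hmem _ hab habN) _ (hmem x₀ hx₀ hxN)
      have hq := h.map_mk N
      have hp : ((a : G ⧸ N) * x₀) ^ p = 1 := by
        rw [← QuotientGroup.mk_mul, ← QuotientGroup.mk_pow, (h.prod a ha x₀ hx₀).resolve_left h1,
          QuotientGroup.mk_one]
      have hq2 : (a : G ⧸ N) * x₀ * ((a : G ⧸ N) * x₀) = 1 := by
        rw [← hcomm.mul_mul_mul_comm, hq.sq (hmem a ha haN), hq.sq (hmem x₀ hx₀ hxN), one_mul]
      exact (eq_inv_of_mul_eq_one_right (hq.eq_one_of_sq hq2 hp)).trans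
        (hq.inv_eq (hmem a ha haN))
    have hba : b₀ * a₀ ∈ D := hab.eq ▸ hab₀
    have e1 := key a₀ ha₀ b₀ hb₀ hab₀ hne₀ hbx habx
    have e2 := key b₀ hb₀ a₀ ha₀ hba hbx hne₀ (hab.eq ▸ habx)
    have habN : a₀ * b₀ ∉ N := fun e => hxN ((hnear _ hab₀ x₀ hx₀ habx).1 e)
    refine habN ((QuotientGroup.eq_one_iff _).1 ?_)
    rw [QuotientGroup.mk_mul, ← e1, ← e2, ← QuotientGroup.mk_mul, h.sq hx₀, QuotientGroup.mk_one]
  -- the class of `a`
  have hsub : conjugatesOf a₀ ⊆ D := fun d hd => by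
    obtain ⟨g, rfl⟩ := isConj_iff.1 hd
    exact h.conj_mem g a₀ ha₀
  obtain ⟨hab, -, -⟩ := h.triangle ha₀ hb₀ hab₀ ha₀ (Commute.refl a₀)
  have hx' := h.isConj_of_not_commute ha₀ hx₀ hne₀
  have hb' : IsConj a₀ b₀ := hx'.trans (h.isConj_of_not_commute hb₀ hx₀ fun e =>
    hne₀ (h.triangle hb₀ ha₀ (hab.eq ▸ hab₀) hx₀ e.symm).2.2.symm).symm
  have hab' : IsConj a₀ (a₀ * b₀) := hx'.trans (h.isConj_of_not_commute hab₀ hx₀ fun e =>
    hne₀ (h.triangle hab₀ ha₀
      (by rw [hab.eq, mul_assoc, h.sq ha₀, mul_one]; exact hb₀) hx₀ e.symm).2.2.symm).symm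
  have S : Setting p (conjugatesOf a₀) :=
    { prime := h.prime
      ne_two := h.ne_two
      order_two := fun d hd => h.order_two d (hsub hd)
      conj_mem := fun g d hd => IsConj.trans hd (isConj_iff.2 ⟨g, rfl⟩)
      prod := fun d hd e he => h.prod d (hsub hd) e (hsub he)
      gen := fun a ha b hb x hx hab hne => gen a (hsub ha) b (hsub hb) x (hsub hx) (hsub hab) hne
      simple := simple
      conj := fun a ha b hb => IsConj.trans (IsConj.symm ha) hb
      partner := fun c hc => by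
        obtain ⟨g, rfl⟩ := isConj_iff.1 hc
        refine ⟨g * b₀ * g⁻¹, hb'.trans (isConj_iff.2 ⟨g, rfl⟩), ?_⟩
        rw [show g * a₀ * g⁻¹ * (g * b₀ * g⁻¹) = g * (a₀ * b₀) * g⁻¹ by group]
        exact hab'.trans (isConj_iff.2 ⟨g, rfl⟩)
      far := ⟨a₀, IsConj.refl a₀, x₀, hx', hne₀⟩ }
  exact S.false_of_setting

/-- **Pattern lemma.** If `a`, `b` and `a * b` are members, `a` commutes with every member. -/
theorem IsOddClass.commute_of_pattern {G : Type u} [Group G] [Finite G] {p : ℕ} {D : Set G}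
    (h : IsOddClass p D) {a b x : G} (ha : a ∈ D) (hb : b ∈ D) (hab : a * b ∈ D) (hx : x ∈ D) :
    Commute a x :=
  pattern_aux _ G rfl p D h a ha b hb hab x hx

theorem mem_zpowers_involution {G : Type*} [Group G] {w y : G} (hw : w * w = 1)
    (hy : y ∈ zpowers w) : y = 1 ∨ y = w := by
  obtain ⟨k, rfl⟩ := hy
  obtain ⟨j, rfl⟩ | ⟨j, rfl⟩ := Int.even_or_odd k
  · left
    show w ^ (j + j) = 1
    rw [zpow_add, ← (Commute.refl w).mul_zpow, hw, one_zpow]
  · right
    show w ^ (2 * j + 1) = w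
    rw [zpow_add_one, zpow_mul, zpow_two, hw, one_zpow, one_mul]

/-- A member commuting with the product of three commuting members commutes with each of them. -/
theorem IsOddClass.commute_of_three {G : Type u} [Group G] [Finite G] {p : ℕ} {D : Set G}
    (h : IsOddClass p D) {a b m x : G} (ha : a ∈ D) (hb : b ∈ D) (hm : m ∈ D) (hx : x ∈ D)
    (hab : Commute a b) (ham : Commute a m) (hbm : Commute b m) (hne : a ≠ b) (hma : m ≠ a)
    (hmb : m ≠ b) (hxw : Commute x (a * b * m)) : Commute a x := by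
  by_cases hm' : a * b = m
  · exact h.commute_of_pattern ha hb (hm' ▸ hm) hx
  set w := a * b * m with hw
  have haw : Commute a w := ((Commute.refl a).mul_right hab).mul_right ham
  have hbw : Commute b w := (hab.symm.mul_right (Commute.refl b)).mul_right hbm
  have hmw : Commute m w := (ham.symm.mul_right hbm.symm).mul_right (Commute.refl m)
  have hab2 : a * b * (a * b) = 1 := by
    rw [← hab.mul_mul_mul_comm, h.sq ha, h.sq hb, one_mul]
  have hww : w * w = 1 := by
    rw [hw, ← (ham.mul_left hbm).mul_mul_mul_comm, hab2, h.sq hm, one_mul]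
  have hw1 : w ≠ 1 := fun e => hm' ((eq_inv_of_mul_eq_one_left e).trans (h.inv_eq hm))
  rcases eq_or_ne x w with rfl | hxne
  · exact haw
  set H : Subgroup G := centralizer {w}
  have hmemH : ∀ {y : G}, Commute y w → y ∈ H := fun hy => mem_centralizer_singleton_iff.2 hy.eq
  let wH : H := ⟨w, hmemH (Commute.refl w)⟩
  haveI : (zpowers wH).Normal := ⟨fun y hy g => by
    have hc : Commute g wH := Subtype.ext (mem_centralizer_singleton_iff.1 g.2)
    obtain ⟨k, rfl⟩ := hy
    rw [(hc.zpow_right k).eq, mul_inv_cancel_right]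
    exact ⟨k, rfl⟩⟩
  have hwH2 : wH * wH = 1 := Subtype.ext hww
  have hQ := (h.restrict H).map_mk (zpowers wH)
  have hmemQ : ∀ {d : G} (hd : d ∈ D) (hdw : Commute d w), d ≠ w →
      ((⟨d, hmemH hdw⟩ : H) : H ⧸ zpowers wH) ∈
        {q : H ⧸ zpowers wH | ∃ d ∈ {k : H | (k : G) ∈ D}, (d : H ⧸ zpowers wH) = q ∧ q ≠ 1} :=
    fun {d} hd hdw hdne => ⟨⟨d, hmemH hdw⟩, hd, rfl, fun e => by
      rcases mem_zpowers_involution hwH2 ((QuotientGroup.eq_one_iff _).1 e) with h1 | h1
      · exact h.ne_one hd (congrArg Subtype.val h1)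
      · exact hdne (congrArg Subtype.val h1)⟩
  -- none of the three is `w`
  have haw' : a ≠ w := fun e => hmb (by
    have h1 : b * m = 1 := by
      have h2 : a * (b * m) = a * 1 := by rw [mul_one, ← mul_assoc]; exact e.symm
      exact mul_left_cancel h2
    exact (eq_inv_of_mul_eq_one_right h1).trans (h.inv_eq hb))
  have hbw' : b ≠ w := fun e => hma (by
    have h1 : a * m = 1 := by
      have h2 : b * (a * m) = b * 1 := by
        rw [mul_one, ← mul_assoc, ← hab.eq]; exact e.symm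
      exact mul_left_cancel h2
    exact (eq_inv_of_mul_eq_one_right h1).trans (h.inv_eq ha))
  have hmw' : m ≠ w := fun e => hne (by
    have h1 : a * b = 1 := mul_eq_right.1 e.symm
    exact (eq_inv_of_mul_eq_one_left h1).trans (h.inv_eq hb))
  have hprod : (((⟨a, hmemH haw⟩ : H) : H ⧸ zpowers wH)) * ((⟨b, hmemH hbw⟩ : H) : H ⧸ zpowers wH)
      = ((⟨m, hmemH hmw⟩ : H) : H ⧸ zpowers wH) := by
    rw [← QuotientGroup.mk_mul, QuotientGroup.eq]
    have h1 : ((⟨a, hmemH haw⟩ : H) * ⟨b, hmemH hbw⟩)⁻¹ * ⟨m, hmemH hmw⟩ = wH := by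
      refine Subtype.ext ?_
      show (a * b)⁻¹ * m = w
      rw [inv_eq_of_mul_eq_one_right hab2]
    rw [h1]
    exact mem_zpowers wH
  have hc := hQ.commute_of_pattern (hmemQ ha haw haw') (hmemQ hb hbw hbw')
    (hprod ▸ hmemQ hm hmw hmw') (hmemQ hx hxw hxne)
  -- back to `G`
  by_contra hax
  have hp := (h.prod a ha x hx).resolve_left hax
  have h2 : (a * x) * (a * x) = 1 ∨ (a * x) * (a * x) = w := by
    have h1 : (((⟨a, hmemH haw⟩ * ⟨x, hmemH hxw⟩) * (⟨a, hmemH haw⟩ * ⟨x, hmemH hxw⟩) : H) :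
        H ⧸ zpowers wH) = 1 := by
      rw [QuotientGroup.mk_mul, QuotientGroup.mk_mul, ← hc.mul_mul_mul_comm,
        hQ.sq (hmemQ ha haw haw'), hQ.sq (hmemQ hx hxw hxne), one_mul]
    exact (mem_zpowers_involution hwH2 ((QuotientGroup.eq_one_iff _).1 h1)).imp
      (congrArg Subtype.val) (congrArg Subtype.val)
  have h4 : (a * x) * (a * x) * ((a * x) * (a * x)) = 1 := by
    rcases h2 with e | e <;> rw [e]
    · exact one_mul 1
    · exact hww
  have h5 : (a * x * (a * x)) ^ p = 1 := by rw [(Commute.refl _).mul_pow, hp, one_mul]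
  have h6 := h.eq_one_of_sq (h.eq_one_of_sq h4 h5) hp
  rw [show x = a from (eq_inv_of_mul_eq_one_right h6).trans (h.inv_eq ha)] at hax
  exact hax (Commute.refl a)

end CfsgLib.OddTransp
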