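import Cfsg.Agent.Lib.OddTransp.Basic

/-!
# A minimal group with a commuting triangle `a, b, ab` in a class with products `2` and `p`

In such a group commutation is an equivalence on the class, the product of two commuting members
is a member, and a member normalising a block of commuting members lies in it.
-/

set_option autoImplicit false

namespace CfsgLib.OddTransp

open Subgroup

variable {G : Type*} [Group G]

/-- Two members commuting with `a` and `b` if they commute with `a`, when `a * b` is a member. -/
theorem IsOddClass.triangle {p : ℕ} {D : Set G} (h : IsOddClass p D) {a b e : G} (ha : a ∈ D)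
    (hb : b ∈ D) (hab : a * b ∈ D) (he : e ∈ D) (hc : Commute e a) :
    Commute a b ∧ a ≠ b ∧ Commute e b := by
  have hne : a ≠ b := fun r => h.ne_one hab (by rw [r, h.sq hb])
  have hcab : Commute a b := by
    have h1 := h.inv_eq hab
    rw [mul_inv_rev, h.inv_eq ha, h.inv_eq hb] at h1
    exact h1.symm
  refine ⟨hcab, hne, ?_⟩
  have hne' : a * b ≠ b := fun r => h.ne_one ha (mul_eq_right.1 r)
  exact h.commute_right hab hb he (hcab.mul_left (Commute.refl b)) hne'
    (by rwa [mul_assoc, h.sq hb, mul_one])

/-- The data of a minimal counterexample. -/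
structure Setting (p : ℕ) (D : Set G) : Prop extends IsOddClass p D where
  gen : ∀ a ∈ D, ∀ b ∈ D, ∀ x ∈ D, a * b ∈ D → ¬ Commute a x → closure {a, b, x} = ⊤
  simple : ∀ N : Subgroup G, N.Normal → N = ⊥ ∨ N = ⊤
  conj : ∀ a ∈ D, ∀ b ∈ D, IsConj a b
  partner : ∀ a ∈ D, ∃ b ∈ D, a * b ∈ D
  far : ∃ a ∈ D, ∃ x ∈ D, ¬ Commute a x

namespace Setting

variable {p : ℕ} {D : Set G} (S : Setting p D)
include S

theorem eq_one_of_commute_triangle {a b x u : G} (ha : a ∈ D) (hb : b ∈ D) (hx : x ∈ D)
    (hab : a * b ∈ D) (hax : ¬ Commute a x) (hua : Commute u a) (hub : Commute u b)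
    (hux : Commute u x) : u = 1 := by
  have h1 : u ∈ center G := by
    rw [mem_center_iff]
    intro g
    have hg : g ∈ closure ({a, b, x} : Set G) := by rw [S.gen a ha b hb x hx hab hax]; exact mem_top g
    have hle : closure ({a, b, x} : Set G) ≤ centralizer {u} := (closure_le _).2 <| by
      rintro y (rfl | rfl | rfl)
      · exact mem_centralizer_singleton_iff.2 hua.symm.eq
      · exact mem_centralizer_singleton_iff.2 hub.symm.eq
      · exact mem_centralizer_singleton_iff.2 hux.symm.eq
    exact mem_centralizer_singleton_iff.1 (hle hg)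
  rcases S.simple (center G) inferInstance with h | h
  · rwa [h, mem_bot] at h1
  · exact absurd ((mem_center_iff.1 (h ▸ mem_top a : a ∈ center G) x).symm) hax

theorem commute_trans {a e f : G} (ha : a ∈ D) (he : e ∈ D) (hf : f ∈ D) (h1 : Commute a e)
    (h2 : Commute e f) : Commute a f := by
  by_contra hn
  obtain ⟨b, hb, hab⟩ := S.partner a ha
  obtain ⟨-, -, heb⟩ := S.toIsOddClass.triangle ha hb hab he h1.symm
  exact S.ne_one he (S.eq_one_of_commute_triangle ha hb hf hab hn h1.symm heb h2)

/-- Elements moving every member within its block. -/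
def blockKernel : Subgroup G where
  carrier := {g | ∀ c ∈ D, Commute c (g * c * g⁻¹)}
  one_mem' := fun c _ => by simp
  mul_mem' := fun {g k} hg hk c hc => by
    have h1 := hg _ (S.conj_mem k c hc)
    refine S.commute_trans hc (S.conj_mem k c hc) (S.conj_mem _ c hc) (hk c hc) ?_
    simpa [mul_assoc] using h1
  inv_mem' := fun {g} hg c hc => by
    have h1 := hg _ (S.conj_mem g⁻¹ c hc)
    simpa [mul_assoc] using h1.symm

theorem mem_blockKernel {g : G} :
    g ∈ S.blockKernel ↔ ∀ c ∈ D, Commute c (g * c * g⁻¹) := Iff.rfl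

theorem blockKernel_normal : S.blockKernel.Normal := ⟨fun n hn g c hc => by
  have h1 := (Commute.conj_iff g).2 (hn _ (S.conj_mem g⁻¹ c hc))
  simpa [mul_assoc] using h1⟩

theorem blockKernel_eq_bot : S.blockKernel = ⊥ := by
  refine (S.simple _ S.blockKernel_normal).resolve_right fun h => ?_
  obtain ⟨a, ha, x, hx, hne⟩ := S.far
  have h1 : a ∈ S.blockKernel := h ▸ mem_top a
  refine S.not_commute_conj ha hx hne ?_
  simpa [S.inv_eq ha] using h1 x hx

/-- A member normalising the block of `c` lies in it. -/
theorem commute_of_fix {u c : G} (hu : u ∈ D) (hc : c ∈ D) (h : Commute c (u * c * u)) :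
    Commute u c := by
  by_contra hn
  exact S.not_commute_conj hu hc hn h

/-- Two commuting members have their product in the class. -/
theorem prod_mem {a b : G} (ha : a ∈ D) (hb : b ∈ D) (hab : Commute a b) (hne : a ≠ b) :
    a * b ∈ D := by
  by_contra hnot
  set z := a * b with hz
  have hz2 : z * z = 1 := by
    calc a * b * (a * b) = a * b * (b * a) := by rw [hab.eq]
      _ = 1 := by rw [← mul_assoc, mul_assoc a b b, S.sq hb, mul_one, S.sq ha]
  have hzi : z⁻¹ = z := inv_eq_of_mul_eq_one_right hz2
  have hzK : z ∈ S.blockKernel := fun c hc => by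
    by_cases hca : Commute c a
    · have hcb : Commute c b := S.commute_trans hc ha hb hca hab
      rw [(hca.mul_right hcb).symm.eq, mul_inv_cancel_right]
    by_contra hfar
    have hd : z * c * z⁻¹ ∈ D := S.conj_mem z c hc
    obtain ⟨m, hm, -, hmc, -, hnm⟩ := S.exists_mid hc hd hfar
    have hzc : z * c * z = m * c * m := by rw [hmc, hzi]
    have hmz : Commute m z := S.commute_of_conj_pair hm hc hnm hz2 hzc
    have hma := S.commute_left ha hb hm hab hne hmz
    have hmb := S.commute_right ha hb hm hab hne hmz
    have hwc : Commute (z * m) c := by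
      show z * m * c = c * (z * m)
      have h1 : c * (z * m) = z * (z * c * z) * m := by
        calc c * (z * m) = z * z * c * z * m := by rw [hz2, one_mul, ← mul_assoc]
          _ = z * (z * c * z) * m := by simp only [mul_assoc]
      rw [h1, hzc, mul_assoc z (m * c * m) m, mul_assoc (m * c) m m, S.sq hm, mul_one, ← mul_assoc]
    obtain ⟨f, hf, haf⟩ := S.partner a ha
    obtain ⟨hcaf, -, hbf⟩ := S.toIsOddClass.triangle ha hf haf hb hab.symm
    obtain ⟨-, -, hmf⟩ := S.toIsOddClass.triangle ha hf haf hm hma
    have hw : z * m = 1 := S.eq_one_of_commute_triangle ha hf hc haf (fun e => hca e.symm)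
      (((Commute.refl a).mul_left hab.symm).mul_left hma)
      ((hcaf.mul_left hbf).mul_left hmf) hwc
    refine hnot ?_
    rw [eq_inv_of_mul_eq_one_left hw, S.inv_eq hm]
    exact hm
  rw [S.blockKernel_eq_bot, mem_bot] at hzK
  exact hne ((eq_inv_of_mul_eq_one_left hzK).trans (S.inv_eq hb))

end Setting

end CfsgLib.OddTransp
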